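import Cfsg.Agent.H13.Lin2

/-! Computation kit (namespace H13): a model of the automorphism group. `evA`, `basOk`, `Mo.aut`. -/

set_option maxHeartbeats 400000

namespace H13

open Subgroup MulAction

/-- the evaluator with a further letter `m` -/
noncomputable def evA (ev : ℕ → ℕ → ℕ) (m : ℕ) (f : ℕ → ℕ) (l : ℕ) : ℕ → ℕ := Bool.rec (ev l) f (Nat.beq l m)

/-- every letter is a word in earlier letters or the involution of a base point -/
noncomputable def basOk (ev : ℕ → ℕ → ℕ) (dw bs : List ℕ) (cs : List (List ℕ)) (m : ℕ) : Bool :=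
  allLt (fun l => forceW (nthW cs l) fun u => bor (band (inB 0 l u) (eqB ev bs [([l], u)]))
    (band (anyL (fun b => Nat.beq (evR ev u b) 0) bs) (eqB ev bs [([l], cjW dw u)]))) m

theorem nth_snoc (nets : List Net) (N : Net) (l : ℕ) : nth (nets ++ [N]) l = if l = nets.length then N else nth nets l := by
  rw [nth_eq, nth_eq]
  rcases lt_trichotomy l nets.length with h | h | h
  · rw [if_neg h.ne, List.getD_append _ _ _ _ h]
  · simp [h]
  · rw [if_neg h.ne', List.getD_eq_default _ _ h.le, List.getD_eq_default _ _ (by simpa using h)]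

theorem Sys1.smul_eq {G G' α : Type*} [Group G] [Group G'] [MulAction G α] [MulAction G' α] {P : Pts α} {g : ℕ → G} {g' : ℕ → G'}
    {nets nets' : List Net} (S : Sys1 P g nets) (S' : Sys1 P g' nets') {l i : ℕ} (h : nth nets l = nth nets' l) (hi : i < P.n) :
    g l • P.pt i = g' l • P.pt i := by
  have a := S.testBit_ap l (2 ^ P.ix (g l) i) hi
  rw [h, S'.testBit_ap l _ hi, Nat.testBit_two_pow_self, Nat.testBit_two_pow, decide_eq_true_eq] at a
  rw [(S.rep_gen l i hi).2, (S'.rep_gen l i hi).2, a]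

theorem Mo.aut {G : Type*} [Group G] [Finite G] {n K N : ℕ} {nets : List Net} {ev : ℕ → ℕ → ℕ} {dw bs : List ℕ} {D : Set G} {gen : ℕ → G}
    (M : Mo n K N nets ev dw bs D gen) (hA : ∀ φ : MulAut G, ∀ d ∈ D, φ d ∈ D) (hz : center G = ⊥) (hc : Nat.card (MulAut G) = 2 * N)
    {m c S : ℕ} (hm : nets.length = m) {Ns : Net} {t : Tb} {ws cs : List (List ℕ)} {w0 : List ℕ} (hn : n ≤ 2 ^ c) (hS : n ≤ S)
    (h1 : band (Ns.ok 1 n) (band (t.sz c S) (allLt (tabK n S (nets ++ [Ns]) [m] t) c)) = true)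
    (h2 : band (relP n c (nets ++ [Ns]) [m, m] [])
      (allLt (fun l => band (inB 0 m (nthW ws l)) (relP n c (nets ++ [Ns]) [m, l, m] (nthW ws l))) m) = true)
    (h3 : band (band (inB 0 m dw) (Nat.beq (evR ev w0 (t.look c S 0)) 0)) (eqB ev bs [(subW ws dw, cjW dw w0)]) = true)
    (h4 : basOk ev dw bs cs m = true) {w k : ℕ} (hk : k + 1 < 2 ^ w) {lv : List (ℕ × List (List ℕ × ℕ))}
    (h5 : Nat.blt N (chG (evA ev m (t.look c S)) n w k (m + 1) lv []) = true) :
    ∃ s : MulAut G, Mo n K (2 * N) (nets ++ [Ns]) (evA ev m (t.look c S)) dw bs (MulAut.conj '' D)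
      (Function.update (fun l => MulAut.conj (gen l)) m s) := by
  obtain ⟨α, _, pt, inj, A⟩ := M.ex
  simp only [band_eq_true, allLt_iff] at h1 h2 h3
  have ok : ∀ l, (nth (nets ++ [Ns]) l).ok 1 n = true := fun l => by
    rw [nth_snoc]; split_ifs
    exacts [h1.1, A.sys.ok l]
  obtain ⟨π, Q⟩ := exists_sys1_perm (P := ⟨n, pt, inj⟩) A.all ok
  have ex : ∀ {σ τ : Equiv.Perm α}, (∀ i < n, σ • pt i = τ • pt i) → σ = τ := fun h => Equiv.ext fun x => by
    obtain ⟨i, hi, rfl⟩ := A.all x; exact h i hi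
  let ψ := toPermHom G α
  have ψi : Function.Injective ψ := (injective_iff_map_eq_one ψ).2 fun g h => A.base.2 g fun b _ => DFunLike.congr_fun h _
  have p1 : ∀ l, l ≠ m → π l = ψ (gen l) := fun l h => ex fun i hi => Q.smul_eq A.sys (by rw [nth_snoc, if_neg (hm ▸ h)]) hi
  have g1 : ∀ l, m ≤ l → gen l = 1 := fun l h => A.base.2 _ fun b hb => by
    have := A.sys.testBit_ap l (2 ^ b) (A.base.1 b hb)
    rw [nth_eq, List.getD_eq_default _ _ (hm ▸ h), show Net.nil.ap (2 ^ b) = 2 ^ b from rfl, Nat.testBit_two_pow_self, Nat.testBit_two_pow, eq_comm,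
      decide_eq_true_eq] at this
    rw [(A.sys.rep_gen l b (A.base.1 b hb)).2, ← this]
  have p2 : ∀ u, inB 0 m u = true → evalW π u = ψ (evalW gen u) := fun u h => (evalW_congr fun l hl => p1 l (by
    have := allL_iff.1 h l hl
    simp only [band_eq_true, Nat.blt_eq] at this
    exact this.2.ne)).trans (map_evalW ψ gen u).symm
  have tt : π m * π m = 1 := by simpa using ex fun i hi => Q.smul_eq_of_relP h2.1 hi
  have ti := inv_eq_of_mul_eq_one_right tt
  have p3 : ∀ l < m, π m * ψ (gen l) * (π m)⁻¹ = ψ (evalW gen (nthW ws l)) := fun l h => by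
    rw [← p2 _ (h2.2 l h).1, ← ex fun i hi => Q.smul_eq_of_relP (h2.2 l h).2 hi, ti, ← p1 l h.ne]; simp [mul_assoc]
  have nm : π m ∈ normalizer (ψ.range : Set (Equiv.Perm α)) := by
    have := Finite.of_surjective (fun i : Fin n => pt i) fun x => let ⟨i, a, b⟩ := A.all x; ⟨⟨i, a⟩, b⟩
    have e : ψ.range = closure (ψ '' Set.range gen) := by rw [← MonoidHom.map_closure, M.top, MonoidHom.range_eq_map]
    rw [e]
    refine mem_norm_cl ?_
    rintro _ ⟨_, ⟨l, rfl⟩, rfl⟩
    rw [← e]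
    exact (Nat.lt_or_ge l m).elim (fun h => ⟨_, (p3 l h).symm⟩) fun h => by simp [g1 l h]
  let ε := MonoidHom.ofInjective ψi
  let s : MulAut G := ε.trans ((ψ.range.normalizerMonoidHom ⟨_, nm⟩).trans ε.symm)
  have hs : ∀ g, ψ (s g) = π m * ψ g * (π m)⁻¹ := fun g => congrArg Subtype.val (ε.apply_symm_apply _)
  have ss : s * s = 1 := MulEquiv.ext fun g => ψi (by
    rw [MulAut.mul_apply, hs, hs, ti, ← mul_assoc, ← mul_assoc, tt, one_mul, mul_assoc, tt, mul_one]; rfl)
  have sw : s (evalW gen dw) = evalW gen (subW ws dw) := by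
    rw [evalW_subW, show s (evalW gen dw) = _ from map_evalW s.toMonoidHom gen dw]
    exact evalW_congr fun l hl => ψi (by
      have := allL_iff.1 h3.1.1 l hl
      simp only [band_eq_true, Nat.blt_eq] at this
      exact (hs _).trans ((p3 l this.2).trans (by rw [genW_eq])))
  have rl : Rep ⟨n, pt, inj⟩ (π m) (t.look c S) := by simpa using Q.rep_look hn hS h1.2.1 h1.2.2
  have tp : ∀ x, s (A.cls.tp x) = A.cls.tp (π m • x) := fun x => by
    obtain ⟨g, rfl⟩ := A.cls.trans x
    have : π m • g • pt 0 = s g • π m • pt 0 := by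
      change _ = ψ (s g) • π m • pt 0
      rw [hs, ← mul_smul, inv_mul_cancel_right]; rfl
    simp only
    rw [this, A.cls.tp_smul (s g), (rl 0 A.pos).2, A.tp_eq (A.smul_zero (rl 0 A.pos).1 h3.1.2), ← A.evl.eq A.base h3.2 (.head _), ← sw,
      A.cls.tp_of, map_mul, map_mul, map_inv]
  have mem : ∀ x, A.cls.tp x ∈ D := fun x => M.cl ▸ A.cls.tp_mem x
  have sur : ∀ d ∈ D, ∃ x, A.cls.tp x = d := fun d h => by rwa [M.cl, ← A.cls.range_tp] at h
  choose sm hsm using fun (φ : MulAut G) x => sur _ (hA φ _ (mem x))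
  letI : MulAction (MulAut G) α :=
    { smul := sm
      one_smul := fun x => A.cls.tp_inj (hsm 1 x)
      mul_smul := fun a b x => A.cls.tp_inj ((hsm _ x).trans ((hsm a _).trans (congrArg a (hsm b x))).symm) }
  have ky : ∀ {φ : MulAut G} {x y}, φ • x = y ↔ φ (A.cls.tp x) = A.cls.tp y := fun {φ x y} => hsm φ x ▸ A.cls.tp_inj.eq_iff.symm
  let P : Pts α := ⟨n, pt, inj⟩
  have r1 : ∀ {g : G} {f}, Rep P g f → Rep P (MulAut.conj g) f := fun h i hi =>
    ⟨(h i hi).1, ky.2 ((A.cls.tp_smul _ _).symm.trans (congrArg _ (h i hi).2))⟩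
  have r2 : ∀ {f}, Rep P (π m) f → Rep P s f := fun h i hi => ⟨(h i hi).1, ky.2 ((tp _).trans (congrArg _ (h i hi).2))⟩
  have cj : Function.Injective (MulAut.conj : G →* MulAut G) := (injective_iff_map_eq_one _).2 fun x h =>
    mem_bot.1 (hz ▸ mem_center_iff.2 fun y => (mul_inv_eq_iff_eq_mul.1 (DFunLike.congr_fun h y)).symm)
  have cc : ∀ (φ : MulAut G) (x : G), φ * MulAut.conj x * φ⁻¹ = MulAut.conj (φ x) := fun φ x => MulEquiv.ext fun y => by simp
  let γ := Function.update (fun l => MulAut.conj (gen l)) m s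
  have dwe : evalW γ dw = MulAut.conj (evalW gen dw) := (evalW_congr fun l hl => by
    have := allL_iff.1 h3.1.1 l hl
    simp only [band_eq_true, Nat.blt_eq] at this
    exact Function.update_of_ne this.2.ne _ _).trans (map_evalW MulAut.conj gen dw).symm
  have E : Ev P γ (evA ev m (t.look c S)) := fun l => by
    by_cases h : l = m
    · subst h; simpa [γ, evA, Nat.beq_refl] using r2 rl
    · simpa [γ, evA, h, Bool.eq_false_iff.2 fun q => h (Nat.eq_of_beq_eq_true q)] using r1 (A.evl l)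
  have B : Base (MulAut G) P bs := ⟨A.base.1, fun φ q => by
    have k : ∀ l, gen l ∈ φ.toMonoidHom.eqLocus (MonoidHom.id G) := fun l => by
      induction l using Nat.strong_induction_on with
      | _ l ih =>
      rcases Nat.lt_or_ge l m with h | h
      · have := allLt_iff.1 h4 l h
        simp only [forceW_eq, bor_eq_true, band_eq_true, anyL_iff] at this
        rcases this with ⟨a, b⟩ | ⟨⟨b, p, a⟩, e⟩
        · exact (show gen l = _ by simpa using A.evl.eq A.base b (.head _)) ▸ (tl_le fun j _ => ih j) (evalW_mem_tl a)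
        · rw [show gen l = _ by simpa using A.evl.eq A.base e (.head _), ← A.tp_eq (A.smul_zero (A.base.1 b p) a)]
          exact ky.1 (q b p)
      · exact g1 l h ▸ one_mem _
    exact MulEquiv.ext fun g => ((closure_le _).2 (by rintro _ ⟨l, rfl⟩; exact k l) : closure (Set.range gen) ≤ _) (M.top ▸ mem_top g)⟩
  have d0 : A.cls.tp (pt 0) = evalW gen dw := A.cls.tp_base
  refine ⟨s, ⟨α, inferInstance, pt, inj, ⟨ok, fun l => ?_⟩, E, fun l => ?_, A.all, A.pos, ⟨fun x => ?_, Subgroup.ext fun φ => ?_⟩,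
    fun i hi => ?_, B⟩, Set.ext fun φ => ?_, hc, eq_top_iff.2 ?_⟩
  · by_cases h : l = m
    · subst h
      obtain ⟨σ, a, b⟩ := Q.net l
      exact ⟨σ, by simpa using r2 a, b⟩
    · obtain ⟨σ, a, b⟩ := A.sys.net l
      exact ⟨σ, by simpa [h] using r1 a, by rwa [nth_snoc, if_neg (hm ▸ h)]⟩
  · by_cases h : l = m
    · subst h; simpa [ivx] using ss
    · simpa [ivx, h, ← map_mul] using congrArg MulAut.conj (A.inv l)
  · obtain ⟨g, rfl⟩ := A.cls.trans x
    exact ⟨MulAut.conj g, ky.2 (A.cls.tp_smul _ _).symm⟩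
  · rw [show evalW _ dw = _ from dwe, mem_centralizer_singleton_iff, ← mul_inv_eq_iff_eq_mul, cc, cj.eq_iff, ← d0]
    exact ky.symm
  · rw [show evalW _ dw = _ from dwe, ← A.fixd i hi, ← A.cls.commute_iff]
    exact ky.trans mul_inv_eq_iff_eq_mul
  · rw [show evalW _ dw = _ from dwe]
    refine ⟨?_, fun h => ?_⟩
    · rintro ⟨x, hx, rfl⟩
      obtain ⟨g, rfl⟩ := isConj_iff.1 (show x ∈ conjugatesOf (evalW gen dw) from M.cl ▸ hx)
      exact isConj_iff.2 ⟨MulAut.conj g, by simp only [map_mul, map_inv]⟩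
    · obtain ⟨φ, rfl⟩ := isConj_iff.1 h
      exact ⟨_, hA φ _ (d0 ▸ mem _), (cc _ _).symm⟩
  · have a := (Nat.blt_eq.mp h5).trans_le ((⟨inj, E, B⟩ : Sm n _ bs γ pt).card_ge hk lv)
    have b := (tl γ (m + 1) 0).card_mul_index
    have : (tl γ (m + 1) 0).index = 1 := by
      have := (tl γ (m + 1) 0).index_ne_zero_of_finite
      by_contra q
      nlinarith [show 2 ≤ (tl γ (m + 1) 0).index by omega]
    exact (index_eq_one.1 this).ge.trans (tl_le fun j _ _ => subset_closure ⟨j, rfl⟩)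

end H13
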