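import Cfsg.Agent.H13.Ao
import Cfsg.Agent.H13.M24S
import Cfsg.Agent.H13.Cover
import Cfsg.Agent.H29.Tri

/-! Centralisers of products of commuting transpositions in the commutator subgroup: `H13.T24.loc`, `perm_cl`, `T23.two`. -/

set_option maxHeartbeats 400000

namespace H13

open Subgroup Cfsg H29

variable {G : Type*} [Group G] [Finite G] {D : Set G} {L : Subgroup G}

theorem T24.loc (h : T24 D) (h1 : closure D = ⊤) (hz : center G = ⊥) (nm : ∀ d ∈ D, d ∉ L) (i2 : L.index = 2) {t : G} (ht : t ∈ D) :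
    T23 {x : (L ⊓ centralizer {t} : Subgroup G) | (x : G) * t ∈ dperp D t} ∧
      closure {x : (L ⊓ centralizer {t} : Subgroup G) | (x : G) * t ∈ dperp D t} = ⊤ ∧ center (L ⊓ centralizer {t} : Subgroup G) = ⊥ := by
  classical
  have s := tts_sq h.1.tts ht
  have c : ∀ {x : G}, x ∈ centralizer {t} ↔ Commute x t := mem_centralizer_singleton_iff
  have m : ∀ {x : G}, x * t ∈ L ↔ x ∉ L := by simp [mul_mem_iff_of_index_two i2, nm t ht]
  have e := h.1.centralizer_eq h1 hz ht (h.fib_bb ht).1 h.ci h.gen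
  let π : centralizer {t} →* (L ⊓ centralizer {t} : Subgroup G) := MonoidHom.mk' (fun x => ⟨if (x : G) ∈ L then x else x * t, by
    split_ifs with q
    exacts [⟨q, x.2⟩, ⟨m.2 q, mul_mem x.2 (c.2 rfl)⟩]⟩) fun x y => Subtype.ext (by
      have := (c.1 y.2).eq
      by_cases p : (x : G) ∈ L <;> by_cases q : (y : G) ∈ L <;> simp [mul_mem_iff_of_index_two i2, p, q, mul_assoc, ← this]
      rw [← mul_assoc t, ← this, mul_assoc, s, mul_one])
  have p : ∀ x : centralizer {t}, (x : G) ∈ dperp D t → (π x : G) * t = x := fun x q =>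
    (congrArg (· * t) (if_neg (nm _ q.1))).trans (by rw [mul_assoc, s, mul_one])
  have i := (h.2 t ht).1.tt.isoBy_sub (H := centralizer {t}) fun _ q => c.2 q.2.2.symm
  have j := isoBy_hom i.tt π (fun a ha q => ha.2.1 ((p a ha).symm.trans (by simp [q]))) fun a ha b hb q =>
    Subtype.ext (by rw [← p a ha, q, p b hb])
  have k : π '' {x | (x : G) ∈ dperp D t} = {x : (L ⊓ centralizer {t} : Subgroup G) | (x : G) * t ∈ dperp D t} := Set.ext fun x => ⟨by
    rintro ⟨y, q, rfl⟩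
    exact (congrArg (· ∈ dperp D t) (p y q)).mpr q, fun q => ⟨⟨x * t, c.2 q.2.2.symm⟩, q, Subtype.ext (mul_right_cancel (p _ q))⟩⟩
  refine ⟨k ▸ j.t23 (i.symm.t23 (h.2 t ht)), ?_, eq_bot_iff.2 fun z hz' => ?_⟩
  · rw [← k, ← MonoidHom.map_closure, show closure {x : centralizer {t} | (x : G) ∈ dperp D t} = ⊤ from e ▸ closure_closure_coe_preimage]
    exact map_top_of_surjective π fun x => ⟨⟨x, x.2.2⟩, Subtype.ext (if_pos x.2.1)⟩
  · refine (h.1.eq_one_or h1 hz ht (h.fib_bb ht).1 (c.1 z.2.2) fun u hu => ?_).elim (fun q => Subtype.ext q) fun q => absurd (q ▸ z.2.1) (nm t ht)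
    have : Commute (z : G) (u * t) := (congrArg Subtype.val (mem_center_iff.1 hz'
      ⟨u * t, m.2 (nm u hu.1), c.2 (hu.2.2.symm.mul_left rfl)⟩)).symm
    simpa [mul_assoc, s] using this.mul_right (c.1 z.2.2)

theorem T23.two (h : T23 D) (h1 : closure D = ⊤) (hz : center G = ⊥) {d₁ d₂ : G} (h₁ : d₁ ∈ D) (m : d₂ ∈ dperp D d₁) {K : Subgroup G}
    (hK : K = centralizer {d₁, d₂}) : (center K).map K.subtype = closure {d₁, d₂} ∧ IsQuasisimple K ∧ Nonempty (K ⧸ center K ≃* PSU 6 F4 2) := by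
  obtain ⟨g1, g2, odd⟩ := h.gen_two h1 hz h₁ m
  have U := (h.2 _ h₁).2 _ m
  set S := dperp (dperp D d₁) d₂
  set V := closure {d₁, d₂} with hV
  have mK : ∀ g, g ∈ K ↔ Commute g d₁ ∧ Commute g d₂ := fun g => by
    simp [hK, mem_centralizer_iff, commute_iff_eq, @eq_comm _ (g * _)]
  have v1 : d₁ ∈ V := subset_closure (by simp)
  have v2 : d₂ ∈ V := subset_closure (by simp)
  have four : ∀ z ∈ K, Cen S z → z ∈ V := fun z hz' q => by
    rcases h.mem_four h1 hz h₁ m ((mK z).1 hz').1 ((mK z).1 hz').2 q with r | r | r | r <;> rw [r]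
    exacts [one_mem _, v1, v2, mul_mem v1 v2]
  have VS : V ≤ closure S := (closure_le _).2 (by rintro _ (rfl | rfl) <;> assumption)
  have cV : ∀ v ∈ V, Cen S v := fun v hv u hu => mem_centralizer_singleton_iff.1
    (((closure_le (centralizer {u})).2 (by
      rintro _ (rfl | rfl)
      exacts [mem_centralizer_singleton_iff.2 hu.1.2.2, mem_centralizer_singleton_iff.2 hu.2.2])) hv)
  have SK : closure S ≤ K := fun g hg => (mK g).2 ⟨commute_of_mem_closure_dperp
    (Subgroup.closure_mono (fun _ q => q.1) hg), commute_of_mem_closure_dperp hg⟩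
  have e : K = closure S := le_antisymm (fun g hg => by
    obtain ⟨c1, c2⟩ := (mK g).1 hg
    obtain ⟨k, hk, q⟩ := h.inn_loc h₁ m (h.1.tt.isoBy_conj (g := g) (h1 ▸ mem_top g)) (conj_eq_of_commute c1) (conj_eq_of_commute c2)
    simpa using mul_mem hk (VS (four (k⁻¹ * g) (mul_mem (inv_mem (SK hk)) hg) fun v hv => mul_inv_eq_iff_eq_mul.1 (by
      rw [mul_inv_rev, inv_inv, mul_assoc k⁻¹, mul_assoc k⁻¹, ← mul_assoc (g * v), show g * v * g⁻¹ = _ from q v hv]; group)))) SK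
  refine ⟨le_antisymm ?_ fun v hv => ⟨⟨v, SK (VS hv)⟩, ?_, rfl⟩, e ▸ (U.r3 (n := 2)).qs_of_odd odd (by decide), e ▸ U.quot_equiv (by norm_num) _ rfl⟩
  · rintro _ ⟨z, hz, rfl⟩
    exact four z z.2 fun u hu => congrArg Subtype.val (mem_center_iff.1 hz ⟨u, SK (subset_closure hu)⟩).symm
  · subst e; exact mem_center_closure.2 (cV v hv)

theorem perm_cl (hD : IsThreeTranspositionGroup D) (nm : ∀ d ∈ D, d ∉ L) (i2 : L.index = 2) {n : ℕ} {d : Fin (n + 1) → G} (inj : d.Injective)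
    (hd : ∀ i, d i ∈ D) (cm : ∀ i j, Commute (d i) (d j)) (hn : n ≤ 2) (r : RL (n + 1) D)
    (t : ∀ σ : Equiv.Perm (Fin (n + 1)), ∃ g, ∀ i, g * d i * g⁻¹ = d (σ i)) {C K : Subgroup G} (hC : C = L ⊓ centralizer {(List.ofFn d).prod})
    (hK : ∀ g, g ∈ K ↔ g ∈ L ∧ ∀ i, Commute g (d i)) (r2 : RL 2 D) {u : G} (hu : ∀ i, u ∈ dperp D (d i)) :
    K ≤ C ∧ C ≤ normalizer (K : Set G) ∧ (∀ c ∈ C, (∀ k ∈ K, Commute c k) → c ∈ K) ∧
      ∃ φ : C →* Equiv.Perm (Fin (n + 1)), Function.Surjective φ ∧ K.subgroupOf C = φ.ker := by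
  have mC : ∀ g, g ∈ C ↔ g ∈ L ∧ g * (List.ofFn d).prod * g⁻¹ = (List.ofFn d).prod := fun g => by
    rw [hC, mem_inf, mem_centralizer_singleton_iff, mul_inv_eq_iff_eq_mul]
  have pr : ∀ g : G, g * (List.ofFn d).prod * g⁻¹ = (List.ofFn fun i => g * d i * g⁻¹).prod := fun g =>
    (map_list_prod (MulAut.conj g) _).trans (by rw [List.map_ofFn]; rfl)
  obtain ⟨φ, hφ⟩ := exists_perm_hom inj (C := C) fun g hg i => by
    have := RL.sub (l := List.ofFn d) (l' := List.ofFn fun i => g * d i * g⁻¹) (by simpa) hD.1 (by simp) (List.nodup_ofFn.2 inj) (List.forall_mem_ofFn_iff.2 hd)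
      (by simpa [List.forall_mem_ofFn_iff, -List.ofFn_succ] using cm) (List.nodup_ofFn.2 fun i j e => inj ((MulAut.conj g).injective e)) (by simp; omega)
      (List.forall_mem_ofFn_iff.2 fun i => hD.2.1 g _ (hd i))
      (List.forall_mem_ofFn_iff.2 fun i => List.forall_mem_ofFn_iff.2 fun j => (cm i j).map (MulAut.conj g)) (((mC g).1 hg).2.symm.trans (pr g)) _
      (List.mem_ofFn.2 ⟨i, rfl⟩)
    exact (List.mem_ofFn.1 this).imp fun _ => Eq.symm
  have le : K ≤ C := fun g hg => (mC g).2 ⟨((hK g).1 hg).1, by simp only [pr, conj_eq_of_commute (((hK g).1 hg).2 _)]⟩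
  have ker : K.subgroupOf C = φ.ker := Subgroup.ext fun g => by
    simp only [mem_subgroupOf, hK, ((mC _).1 g.2).1, true_and, commute_iff_eq, ← mul_inv_eq_iff_eq_mul, hφ, inj.eq_iff, MonoidHom.mem_ker,
      Equiv.ext_iff, Equiv.Perm.one_apply]
  refine ⟨le, le_normalizer_of_normal_subgroupOf (hK := ker ▸ inferInstance) le, fun c hc q => (hK c).2 ⟨((mC c).1 hc).1, fun i => ?_⟩, φ, fun σ => ?_, ker⟩
  · have a := q (u * d i) ((hK _).2 ⟨by simp [mul_mem_iff_of_index_two i2, nm _ (hd i), nm u (hu 0).1], fun j => (hu j).2.2.symm.mul_left (cm i j)⟩)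
    have b := RL.sub (l := [u, d i]) (l' := [c * u * c⁻¹, c * d i * c⁻¹]) r2 hD.1 (by simp) (by simp [(hu i).2.1]) (by simp [hd, (hu i).1])
      (by simp [(hu i).2.2, (hu i).2.2.symm]) (by simp [(hu i).2.1]) (by simp) (by simpa using ⟨hD.2.1 c _ (hu i).1, hD.2.1 c _ (hd i)⟩)
      (by simp [(hu i).2.2, (hu i).2.2.symm]) (by simpa [mul_assoc] using (conj_eq_of_commute a).symm) (c * d i * c⁻¹) (by simp)
    simp only [List.mem_cons, List.not_mem_nil, or_false] at b
    exact mul_inv_eq_iff_eq_mul.1 (b.resolve_left fun e => (hu _).2.1 (e.symm.trans (hφ ⟨c, hc⟩ i)))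
  · obtain ⟨g, hg⟩ := t σ
    obtain ⟨g, a, hg⟩ : ∃ g ∈ L, ∀ i, g * d i * g⁻¹ = d (σ i) := (em (g ∈ L)).elim (⟨g, ·, hg⟩) fun a =>
      ⟨g * d 0, by simp [mul_mem_iff_of_index_two i2, a, nm _ (hd 0)], fun i => by
        rw [← hg, mul_assoc g, (cm 0 i).eq]; group⟩
    refine ⟨⟨g, (mC g).2 ⟨a, ?_⟩⟩, Equiv.ext fun i => inj (by rw [← hφ, hg])⟩
    simp only [pr, hg]
    exact (σ.ofFn_comp_perm d).prod_eq' (List.pairwise_of_forall_mem_list (by
      simp only [List.mem_ofFn]; rintro _ ⟨i, rfl⟩ _ ⟨j, rfl⟩; exact cm _ _))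

omit [Finite G] in
theorem qs_map {A T : Type*} [Group A] [Group T] {f : A →* G} (hf : Function.Injective f) {K : Subgroup A} (q : IsQuasisimple K)
    (e : Nonempty (K ⧸ center K ≃* T)) : (center (K.map f)).map (K.map f).subtype = ((center K).map K.subtype).map f ∧ IsQuasisimple (K.map f) ∧
      Nonempty (K.map f ⧸ center (K.map f) ≃* T) := by
  have a : (center K).map (K.equivMapOfInjective f hf : K →* K.map f) = center _ :=
    le_antisymm (H22.map_center_le_center (MulEquiv.surjective _)) fun b hb => ⟨(K.equivMapOfInjective f hf).symm b,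
      H22.map_center_le_center (f := ((K.equivMapOfInjective f hf).symm : K.map f →* K)) (MulEquiv.surjective _) ⟨b, hb, rfl⟩, by simp⟩
  refine ⟨?_, H22.qs_of_equiv q (K.equivMapOfInjective f hf), e.map (QuotientGroup.congr _ _ _ a).symm.trans⟩
  rw [← a, map_map, map_map]
  rfl

end H13
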