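import Cfsg.Agent.H13.Ct

/-! Computation kit (namespace H13): class trees for involutions outside a normal subgroup. `Ct.ok2`, `Sm.tree2`. -/

namespace H13

open Subgroup MulAction Cfsg

variable {G α : Type*} [Group G] [MulAction G α]

/-- the checks at the nodes -/
noncomputable def Ct.ok2 (ev : ℕ → ℕ → ℕ) (bs : List ℕ) (n : ℕ) (L : List (List ℕ)) (t : Ct) : List ℕ → ℕ → Bool :=
  Ct.rec (fun j w k => band (Nat.ble n k) (band (Nat.blt j L.length) (beqW w (nthW L j)))) (fun _ _ _ => false)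
    (fun _ c w k => forceW (unW c) fun u => band (Nat.blt k n) (band (inB (Nat.succ k) n u) (eqB ev bs [(w ++ w, k :: u)])))
    (fun c y _ ih w k => forceW (unW c) fun c => forceW (unW y) fun y => band (band (band (Nat.blt k n) (inB 0 n c))
      (band (inB (Nat.succ k) n y) (eqB ev bs [(c ++ w, w ++ k :: (y ++ c))]))) (force (Nat.succ k) (ih w)))
    (fun _ _ _ a b _ w k => band (Nat.blt k n) (force (Nat.succ k) fun k' => band (a w k') (forceW (w ++ [k]) fun w => b w k'))) t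

theorem Ct.ok2_merge (ev : ℕ → ℕ → ℕ) (bs : List ℕ) (n : ℕ) (L : List (List ℕ)) (c y : ℕ) (t : Ct) (w : List ℕ) (k : ℕ) :
    (merge c y t).ok2 ev bs n L w k = forceW (unW c) fun c => forceW (unW y) fun y => band (band (band (Nat.blt k n) (inB 0 n c))
      (band (inB (Nat.succ k) n y) (eqB ev bs [(c ++ w, w ++ k :: (y ++ c))]))) (force (Nat.succ k) (t.ok2 ev bs n L w)) := rfl

theorem Ct.ok2_split (ev : ℕ → ℕ → ℕ) (bs : List ℕ) (n : ℕ) (L : List (List ℕ)) (a b c : Ct) (w : List ℕ) (k : ℕ) :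
    (split a b c).ok2 ev bs n L w k = band (Nat.blt k n) (force (Nat.succ k) fun k' => band (a.ok2 ev bs n L w k')
      (forceW (w ++ [k]) fun w => b.ok2 ev bs n L w k')) := rfl

namespace Sm

variable [Finite G] {m : ℕ} {ev : ℕ → ℕ → ℕ} {bs : List ℕ} {gen : ℕ → G} {pt : ℕ → α} (S : Sm m ev bs gen pt)
include S

theorem node2 {n : ℕ} (h : Chf gen 2 n) {L : List (List ℕ)} {T : G → Prop} (t1 : ∀ c x, T x → T (c * x * c⁻¹))
    (t2 : ∀ w ∈ L, T (evalW gen w)) (t : Ct) {w : List ℕ} {k : ℕ}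
    (hw : evalW gen w ∈ tl gen n 0) (ht : t.ok2 ev bs n L w k = true) :
    ∀ v ∈ tl gen n k, (evalW gen w * v) ^ 2 = 1 → T (evalW gen w * v) := by
  induction t generalizing w k with
  | leaf j =>
    intro v hv _
    simp only [Ct.ok2, band_eq_true, Nat.ble_eq, Nat.blt_eq] at ht
    rw [show v = 1 from mem_bot.1 (tl_self gen n ▸ tl_mono gen n ht.1 hv), mul_one, eq_of_beqW ht.2.2]
    exact t2 _ (by rw [nthW_eq, List.getD_eq_getElem _ _ ht.2.1]; exact List.getElem_mem _)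
  | cover y => exact absurd ht Bool.false_ne_true
  | dead e c =>
    intro v hv q
    simp only [Ct.ok2, forceW_eq, band_eq_true, Nat.blt_eq] at ht
    have a := h.mul_pow ht.1 hw hv
    have b := S.eq1 ht.2.2
    rw [evalW_append, evalW_cons, ← sq] at b
    rw [q, mul_one, inv_mem_iff, b, mul_mem_cancel_right (evalW_mem_tl ht.2.1), ← pow_one (gen k)] at a
    exact absurd a (h.not_mem (by decide) ht.1 (by decide) (by decide))
  | merge c y t ih =>
    intro v hv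
    simp only [Ct.ok2_merge, forceW_eq, force_eq, band_eq_true, Nat.blt_eq] at ht
    obtain ⟨⟨⟨hk, hc⟩, hy, b⟩, ht⟩ := ht
    replace b := S.eq1 b
    replace hc := evalW_mem_tl (g := gen) hc
    replace hy := evalW_mem_tl (g := gen) hy
    rw [evalW_append, evalW_append, evalW_cons, evalW_append, ← mul_assoc, ← mul_assoc, ← mul_inv_eq_iff_eq_mul] at b
    obtain ⟨e, -, z, hz, rfl⟩ := h.pc.step hk hv
    clear hv
    induction e generalizing z with
    | zero => simpa using ih hw ht z hz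
    | succ e ie =>
      intro q
      have g0 := pow_mem (mem_tl (g := gen) le_rfl hk) e
      have g1 := tl_mono gen n k.zero_le g0
      set c := evalW gen (unW c)
      have e1 : c * (evalW gen w * (gen k ^ e * (c⁻¹ * (((gen k ^ e)⁻¹ * (c * gen k ^ e * c⁻¹))⁻¹ *
          ((gen k ^ e)⁻¹ * (evalW gen (unW y))⁻¹ * (gen k ^ e)⁻¹⁻¹) * z) * c⁻¹⁻¹))) * c⁻¹ = evalW gen w * (gen k ^ (e + 1) * z) := by
        rw [pow_succ', mul_assoc (gen k), ← mul_assoc (evalW gen w) (gen k), eq_mul_inv_of_mul_eq b.symm]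
        simp [mul_assoc]
      rw [← e1] at q ⊢
      exact t1 _ _ (ie _ (h.cj (inv_mem hc) (mul_mem (mul_mem (inv_mem (h.cen' hk hc g0)) (h.cj (inv_mem g1) (inv_mem hy))) hz))
        (by rwa [conj_pow, mul_inv_eq_one, mul_eq_left] at q))
  | split t₀ t₁ t₂ a b c =>
    intro v hv
    simp only [Ct.ok2_split, forceW_eq, force_eq, band_eq_true, Nat.blt_eq] at ht
    obtain ⟨e, he, z, hz, rfl⟩ := h.pc.step ht.1 hv
    have g0 := mem_tl (g := gen) k.zero_le ht.1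
    interval_cases e
    · simpa using a hw ht.2.1 z hz
    · simpa [evalW_append, mul_assoc] using b (by simpa [evalW_append] using mul_mem hw g0) ht.2.2 z hz

theorem tree2 {n : ℕ} (h : Chf gen 2 (n + 1)) (hN : ¬2 ^ (n + 2) ∣ Nat.card G) {H : Subgroup G} [H.Normal] (hH : tl gen (n + 1) 1 ≤ H)
    {L : List (List ℕ)} {T : G → Prop} (t1 : ∀ c x, T x → T (c * x * c⁻¹)) (t2 : ∀ w ∈ L, T (evalW gen w)) {t : Ct}
    (ht : t.ok2 ev bs (n + 1) L [0] 1 = true) {x : G} (hx : orderOf x = 2) (h1 : x ∉ H) : T x := by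
  obtain ⟨c, hc⟩ := conj_of_sylow (p := 2) (by decide) (.of_card (n := 1) ((Nat.card_zpowers x).trans hx)) (.of_card h.cd)
    fun e => hN (by rw [← (tl gen (n + 1) 0).card_mul_index, h.cd, pow_succ _ (n + 1)]; exact Nat.mul_dvd_mul_left _ e)
  obtain ⟨e, he, z, hz, q⟩ := h.pc.step n.succ_pos (hc ⟨x, mem_zpowers x, rfl⟩)
  replace q : c * x * c⁻¹ = gen 0 ^ e * z := q
  interval_cases e
  · exact absurd (by simpa [mul_assoc] using Normal.conj_mem inferInstance _ (q ▸ (by simpa using hH hz) : c * x * c⁻¹ ∈ H) c⁻¹) h1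
  · have := S.node2 h t1 t2 t (w := [0]) (by simpa using mem_tl le_rfl n.succ_pos) ht z hz
    simp only [evalW_cons, evalW_nil, mul_one, ← (pow_one (gen 0) ▸ q : _ = gen 0 * z)] at this
    simpa [mul_assoc] using t1 c⁻¹ _ (this (by rw [conj_pow, ← hx, pow_orderOf_eq_one]; simp))

end Sm

theorem Mo.fix_pt {n K N : ℕ} {nets : List Net} {ev : ℕ → ℕ → ℕ} {dw bs : List ℕ} {D : Set G} {gen : ℕ → G} (M : Mo n K N nets ev dw bs D gen)
    {x u : List ℕ} {fs : List (List ℕ × ℕ)} {L : List ((ℕ × List ℕ) × ℕ)} {a : ℕ} (h1 : H13.fixD n nets ev [x] fs (L.map Prod.fst) = true)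
    (h2 : band (band (band (Nat.blt a n) (Nat.beq (evR ev u a) 0)) (eqB ev bs [(x ++ cjW dw u, cjW dw u ++ x)]))
      (allL (fun p => band (Nat.blt (evR ev u p.1.1) K) (bor (Nat.beq p.1.1 a)
        (band (anyL (fun q => Nat.beq q.1.1 p.2) L) (Nat.ble K (evR ev p.1.2 p.2))))) L) = true) :
    cenW gen [x] ≤ cenW gen [x, cjW dw u] := fun g hg => by
  obtain ⟨e, E⟩ := M.mt
  have f := M.fixD h1
  simp only [band_eq_true, bor_eq_true, Nat.blt_eq, Nat.ble_eq, Nat.beq_eq, allL_iff, anyL_iff, H13.fixD, List.forall_mem_map] at h1 h2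
  have k : ∀ y, y ∈ D ∩ cenW gen [x] ↔ ∃ p ∈ L, e p.1.1 = y := fun y => by
    simp only [f, List.map_map, Set.mem_image, Set.mem_ofPred_eq, List.mem_map, Function.comp]
    exact ⟨fun ⟨_, ⟨p, a, b⟩, c⟩ => ⟨p, a, (E.wd _ _ (h1.1 p a).1 (h1.1 p a).2).trans (b ▸ c)⟩,
      fun ⟨p, a, b⟩ => ⟨_, ⟨p, a, rfl⟩, (E.wd _ _ (h1.1 p a).1 (h1.1 p a).2).symm.trans b⟩⟩
  have c : ∀ g ∈ cenW gen [x], ∀ y ∈ D ∩ cenW gen [x], g * y * g⁻¹ ∈ D ∩ cenW gen [x] := fun g a y b =>
    ⟨M.conj_mem b.1 g, mul_mem (mul_mem a b.2) (inv_mem a)⟩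
  have w := E.wd _ _ h2.1.1.1 h2.1.1.2
  obtain ⟨p, a1, a2⟩ := (k _).1 (c g hg _ ⟨M.mem u, mem_cenW.2 (by simpa [evalW_append, commute_iff_eq] using M.eq h2.1.2 (.head _))⟩)
  refine mem_cenW.2 (List.forall_mem_cons.2 ⟨mem_cenW.1 hg x (.head _), List.forall_mem_singleton.2 ?_⟩)
  rcases (h2.2 p a1).2 with r | ⟨⟨q, b1, b2⟩, r⟩
  · exact (mul_inv_eq_iff_eq_mul.1 (a2.symm.trans (r ▸ w))).symm
  · obtain ⟨t, c1, c2⟩ := (k _).1 (c _ (inv_mem hg) _ ((k _).2 ⟨q, b1, rfl⟩))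
    have := (E.com _ _ h2.1.1.1 _ (h1.1 t c1).1 h2.1.1.2).2 (h2.2 t c1).1
    refine absurd ((E.com _ _ (h1.1 p a1).1 _ (b2 ▸ (h1.1 q b1).1) (h1.1 p a1).2).1 ?_) (not_lt.2 r)
    rw [a2, ← b2, ← w]
    simpa [c2, mul_assoc] using this.map (MulAut.conj g)

end H13
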