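import Cfsg.Agent.H13.Xs
import Cfsg.Agent.H13.O6m

/-! Computation kit, part 35 (namespace H13): 2-local subgroups. `split_quot`, `aes2Ok`, `Sm.aes2`, `ndOk`, `Sm.nd`, `cen_le_of`, `no_odd`. -/

set_option maxHeartbeats 400000

namespace H13

open Subgroup MulAction Cfsg
open scoped commutatorElement

variable {G T α : Type*} [Group G] [Group T] [MulAction G α]

theorem split_quot [Finite G] {p : ℕ} {C E W : Subgroup G} (hE : E ≤ C) (hW : W ≤ C) (hn : W ≤ normalizer (E : Set G)) (q : IsPGroup p E)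
    (e : W ≃* T) (hT : pCore p T = ⊥) (hc : Nat.card C ≤ Nat.card T * Nat.card E) :
    C = E ⊔ W ∧ ∃ _ : (E.subgroupOf C).Normal, Nonempty (C ⧸ E.subgroupOf C ≃* T) := by
  have a : E ⊔ W ≤ normalizer (E : Set G) := sup_le le_normalizer hn
  have := normal_subgroupOf_of_le_normalizer a
  let ψ := ((QuotientGroup.mk' (E.subgroupOf (E ⊔ W))).comp (inclusion le_sup_right)).comp e.symm.toMonoidHom
  have i : Function.Injective ψ := ψ.ker_eq_bot_iff.1 (eq_bot_iff.2 (hT ▸ H02.le_pCore fun x => by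
    obtain ⟨k, hk⟩ := q ⟨e.symm x, (QuotientGroup.eq_one_iff (N := E.subgroupOf (E ⊔ W)) (inclusion le_sup_right (e.symm x))).1 x.2⟩
    exact ⟨k, Subtype.ext (e.symm.injective (Subtype.ext (by simpa using congrArg Subtype.val hk)))⟩))
  have c := card_eq_card_quotient_mul_card_subgroup (E.subgroupOf (E ⊔ W))
  rw [Nat.card_congr (subgroupOfEquivOfLe le_sup_left).toEquiv] at c
  have b := (eq_of_le_of_card_ge (sup_le hE hW) (hc.trans (c ▸ Nat.mul_le_mul_right _ (Nat.card_le_card_of_injective ψ i)))).symm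
  subst b
  exact ⟨rfl, this, ⟨(MulEquiv.ofBijective ψ (i.bijective_of_nat_card_le (Nat.le_of_mul_le_mul_right (c ▸ hc) Nat.card_pos))).symm⟩⟩

theorem cen_le_of [Finite G] {C E : Subgroup G} {z : G} [(E.subgroupOf C).Normal] (hE : E ≤ C) (e : C ⧸ E.subgroupOf C ≃* T)
    (hT : ∀ N : Subgroup T, N.Normal → N = ⊥ ∨ commutator T ≤ N) (A : H04.AES 2 E z) {a b y : G} (ha : a ∈ C) (hb : b ∈ C) (hy : y ∈ E)
    (h : ⁅a, b⁆ * y ≠ y * ⁅a, b⁆ ∧ ⁅a, b⁆ * y ≠ z * y * ⁅a, b⁆) : centralizer (E.subgroupOf C : Set C) ≤ E.subgroupOf C := by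
  let φ := e.toMonoidHom.comp (QuotientGroup.mk' _)
  have s : Function.Surjective φ := e.surjective.comp (QuotientGroup.mk'_surjective _)
  have k : ∀ x, φ x = 1 ↔ x.1 ∈ E := fun x => e.map_eq_one_iff.trans (QuotientGroup.eq_one_iff _)
  rcases hT _ (Normal.map (H := centralizer (E.subgroupOf C : Set C)) inferInstance φ s) with r | r
  · exact fun c hc => (k c).1 (r.le (mem_map_of_mem φ hc))
  obtain ⟨c, p, q⟩ := r (commutator_mem_commutator (mem_top (φ ⟨a, ha⟩)) (mem_top (φ ⟨b, hb⟩)))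
  have u : (c : G)⁻¹ * ⁅a, b⁆ ∈ E := (k (c⁻¹ * ⁅(⟨a, ha⟩ : C), ⟨b, hb⟩⁆)).1 (by rw [map_mul, map_inv, q, map_commutatorElement, inv_mul_cancel])
  obtain ⟨i, hi⟩ := mem_powers_iff_mem_zpowers.2 (A.comm _ u y hy)
  have v := mul_mem (A.comm _ u y hy |> zpowers_le.2 A.mem) hy
  generalize ⁅a, b⁆ = x at *
  have w : ⁅(c : G)⁻¹ * x, y⁆ * y * c = c * (⁅(c : G)⁻¹ * x, y⁆ * y) := congrArg Subtype.val (p ⟨_, hE v⟩ v)
  have t : x * y = z ^ (i % 2) * y * x := by
    rw [← A.ord, pow_mod_orderOf, show z ^ i = _ from hi, ← mul_inv_eq_iff_eq_mul.2 w.symm, commutatorElement_def]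
    group
  rcases Nat.mod_two_eq_zero_or_one i with r | r <;> rw [r] at t
  exacts [absurd (by simpa using t) h.1, absurd (by simpa using t) h.2]

theorem fstar_of [Finite G] {p : ℕ} [Fact p.Prime] {E : Subgroup G} [E.Normal] (q : IsPGroup p E) (e : G ⧸ E ≃* T) (hT : pCore p T = ⊥)
    (hc : centralizer (E : Set G) ≤ E) : generalizedFittingSubgroup G = E := by
  have o : pCore p G = E := le_antisymm (fun x hx => (QuotientGroup.eq_one_iff x).1 (e.map_eq_one_iff.1 ((hT ▸ H02.map_pCore_le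
    (e.toMonoidHom.comp (QuotientGroup.mk' E)) (e.surjective.comp (QuotientGroup.mk'_surjective _))) ⟨x, hx, rfl⟩))) (H02.le_pCore q)
  rw [(H22.fstar_eq_pCore_iff (p := p)).2 (o.symm ▸ hc), o]

/-- the group of the letters `0, .., n` is elementary abelian modulo the central letter `n` -/
noncomputable def aes2Ok (ev : ℕ → ℕ → ℕ) (bs : List ℕ) (n : ℕ) : Bool :=
  allLt (fun i => band (band (zOk ev bs n [i, i] []) (eqB ev bs [([i, n], [n, i])])) (allLt (fun j => zOk ev bs n [i, j] [j, i]) (Nat.succ n))) (Nat.succ n)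

/-- every normal word with `r` letters from `k` on fails to commute with some letter -/
noncomputable def ndOk (ev : ℕ → ℕ → ℕ) (m n k r : ℕ) (L : List (ℕ × ℕ)) : Bool :=
  allLt (fun c => bor (Nat.beq c 0) (forceW (wd (fun _ => 2) r k c) fun w => force (L.getD c (0, 0)).1 fun j => force (L.getD c (0, 0)).2 fun i =>
    band (band (band (Nat.ble k j) (Nat.blt j n)) (Nat.blt i m)) (!Nat.beq (evW ev (w ++ [j]) i) (evW ev (j :: w) i)))) (Nat.pow 2 r)

namespace Sm

variable [Finite G] {m : ℕ} {ev : ℕ → ℕ → ℕ} {bs : List ℕ} {g : ℕ → G} {pt : ℕ → α} (S : Sm m ev bs g pt) {a : ℕ} {rs : List (List ℕ)}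
  (h1 : allLt (pcOk ev bs (fun _ => 2) (a + 1) false rs) (a + 1) = true)
include S h1

theorem aes2 (h2 : 2 ^ (a + 1) ≤ Nat.card (tl g (a + 1) 0)) (h4 : aes2Ok ev bs a = true) : tl g (a + 1) a = zpowers (g a) ∧
    ∀ k ≤ a, Nat.card (tl g (a + 1) k) = 2 ^ (a + 1 - k) ∧ H04.AES 2 (tl g (a + 1) k) (g a) := by
  have c := fun j hj => ((S.pc h1).1.card_eq (k := j) ((po_const fun _ _ _ => rfl).le.trans h2) hj).trans (po_const (p := 2) fun _ _ _ => rfl)
  have e : tl g (a + 1) a = zpowers (g a) := le_antisymm (tl_le fun j _ _ => by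
    rw [show j = a by omega]; exact mem_zpowers _) (zpowers_le.2 (mem_tl le_rfl (by omega)))
  simp only [aes2Ok, band_eq_true, allLt_iff] at h4
  refine ⟨e, fun k hk => ⟨c k (by omega), aes_tl (by rw [← Nat.card_zpowers, ← e, c a (by omega)]; simp) (mem_tl hk (by omega))
    (le_centralizer_iff.1 (tl_le (H := centralizer (zpowers (g a) : Set G)) fun j _ q => ?_) (mem_zpowers _)) fun i p q =>
      ⟨by simpa [sq] using S.z (h4 i q).1.1, fun j r s => by simpa [commutatorElement_def, mul_assoc] using S.z ((h4 i q).2 j s)⟩⟩⟩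
  rw [cen_zpowers]
  simpa [mem_centralizer_singleton_iff] using S.eq1 (h4 j q).1.2

theorem nd {k r : ℕ} (hk : k + r = a) {L : List (ℕ × ℕ)} (h : ndOk ev m (a + 1) k r L = true) (A : H04.AES 2 (tl g (a + 1) k) (g a))
    (e : tl g (a + 1) a = zpowers (g a)) : tl g (a + 1) k ⊓ centralizer (tl g (a + 1) k : Set G) ≤ zpowers (g a) := fun x hx => by
  obtain ⟨c, hc, y, hy, rfl⟩ := (S.pc h1).1.nf (r := r) (by omega) hx.1
  rw [hk, e] at hy
  have := allLt_iff.1 h c (hc.trans_eq (po_const (p := 2) fun _ _ _ => rfl))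
  simp only [bor_eq_true, band_eq_true, forceW_eq, force_eq, Nat.blt_eq, Nat.beq_eq, Nat.ble_eq, Bool.not_eq_true'] at this
  rcases this with rfl | ⟨⟨⟨p, q⟩, s⟩, t⟩
  · rwa [evalW_wd_zero, one_mul]
  have u := hx.2 _ (mem_tl p q)
  rw [← mul_assoc, mul_assoc _ y, ← zpowers_le.2 A.cent hy _ (mem_tl p q), ← mul_assoc, mul_left_inj] at u
  refine absurd (S.inj _ (S.act _ s).1 _ (S.act _ s).1 ?_) (Nat.ne_of_beq_eq_false t)
  rw [← (S.act _ s).2, ← (S.act _ s).2, evalW_append, evalW_cons, evalW_cons, evalW_nil, mul_one, u]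

end Sm

theorem es_equiv' [Finite G] {p : ℕ} [Fact p.Prime] {H : Type*} [Group H] (h : IsExtraspecial p G) (e : G ≃* H) : IsExtraspecial p H := by
  have := Finite.of_equiv _ e.toEquiv
  obtain ⟨z, h1, h2, h3⟩ := H04.exists_aes_of_isExtraspecial h
  have h4 := h1.map e.toMonoidHom e.injective
  rw [map_top_of_surjective _ e.surjective] at h4
  refine H04.isExtraspecial_of_aes_top h4 (fun x hx => ?_) fun hc => h3 ⟨⟨fun x y => e.injective (by
    rw [map_mul, map_mul, hc.is_comm.comm])⟩⟩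
  obtain ⟨i, hi⟩ := h2.le (mem_center_iff.2 fun g => e.injective (by
    rw [map_mul, map_mul, e.apply_symm_apply, mem_center_iff.1 hx]) : e.symm x ∈ center G)
  exact ⟨i, by simpa using congrArg e hi⟩

theorem es_of_aes [Finite G] {Q : Subgroup G} {z : G} {a : ℕ} (A : H04.AES 2 Q z) (h : Q ⊓ centralizer (Q : Set G) ≤ zpowers z)
    (c : Nat.card Q = 2 ^ (a + 2)) : IsExtraspecial 2 Q := H04.isExtraspecial_of_aes A h fun e => by
  have := card_le_of_le (show Q ≤ _ from fun x hx => h ⟨hx, fun y hy => setLike_mul_comm hy hx⟩)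
  rw [c, Nat.card_zpowers, A.ord] at this
  exact absurd ((Nat.pow_le_pow_right (by decide) (by omega : 2 ≤ a + 2)).trans this) (by decide)

end H13
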