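import Cfsg.Agent.H13.G2k
import Cfsg.Agent.H13.Tw

/-!
Computation kit (namespace H13): homomorphisms from an incidence relation; groups of shape `2^(1+12).3.U.2`.
* `icdOk`, `isepOk`, `Sm.inc`, `cmQ`, `core23`.
-/

namespace H13

open Subgroup MulAction H14.PK H14.PK.TS H27.MG Cfsg

variable {G α : Type*} [Group G] [MulAction G α] {m : ℕ} {ev : ℕ → ℕ → ℕ} {bs : List ℕ} {gen : ℕ → G} {pt : ℕ → α}

/-- the word `v` and the table `t` keep the incidence between blocks of points and objects -/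
noncomputable def icdOk (ev : ℕ → ℕ → ℕ) (m k n w : ℕ) (ρ β row : ℕ → ℕ) (v : List ℕ) (t : ℕ) (T τ : ℕ → ℕ) : Bool :=
  band (allLt (fun p => force (T p) fun q => band (band (Nat.blt q m) (Nat.beq (evW ev v (ρ p)) (ρ q)))
    (band (Nat.blt (β p) k) (Nat.beq (β q) (τ (β p))))) m)
    (allLt (fun i => force (row i) fun a => force (row (get w t i)) fun c => allLt (fun b => a.testBit b == c.testBit (τ b)) k) n)

/-- the base objects are determined by their blocks -/
noncomputable def isepOk (m n : ℕ) (β row : ℕ → ℕ) (B : List ℕ) : Bool :=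
  allL (fun i => force (row i) fun a => allLt (fun j => bor (Nat.beq i j) (force (row j) fun c =>
    !allLt (fun p => a.testBit (β p) == c.testBit (β p)) m)) n) B

theorem Sm.inc [Finite G] (S : Sm m ev bs gen pt) {U : Type*} [Group U] {w n m' k r : ℕ} (T : TS U w n) {B : List ℕ} (hB : T.Base B)
    {ρ β row ts : ℕ → ℕ} (h0 : incB ρ m' m = true) (h1 : isepOk m' n β row B = true) {ws : List (List ℕ)}
    (h2 : ∀ l < r, T.In ⊤ (ts l) ∧ ∃ t τ, icdOk ev m' k n w ρ β row (nthW ws l) (ts l) t τ = true) :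
    ∃ θ : tl (H13.genW gen ws) r 0 →* U, ∀ l (h : l < r), θ ⟨_, mem_tl l.zero_le h⟩ = T.el (ts l) := by
  have := T.finite
  have lt : ∀ i < m', ρ i < m := fun i hi => (inc_lt h0 _ le_rfl i hi).trans_le (Nat.ble_eq.mp (band_eq_true.1 h0).1)
  have ij : ∀ i < m', ∀ j < m', pt (ρ i) = pt (ρ j) → i = j := fun i hi j hj q => by
    have := S.inj _ (lt i hi) _ (lt j hj) q
    rcases lt_trichotomy i j with h | h | h
    exacts [absurd this (inc_lt h0 j hj.le i h).ne, h, absurd this (inc_lt h0 i hi.le j h).ne']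
  let P0 : Submonoid (G × U) :=
    { carrier := {x | ∀ p < m', ∃ q < m', x.1 • pt (ρ p) = pt (ρ q) ∧ ∀ i < n, (row i).testBit (β p) = (row (T.ap x.2 i)).testBit (β q)}
      one_mem' := fun p hp => ⟨p, hp, one_smul _ _, fun i hi => by rw [Prod.snd_one, T.ap_one hi]⟩
      mul_mem' := fun {x y} hx hy p hp => by
        obtain ⟨q, hq, a, b⟩ := hy p hp
        obtain ⟨s, hs, c, d⟩ := hx q hq
        exact ⟨s, hs, by rw [Prod.fst_mul, mul_smul, a, c], fun i hi => by rw [Prod.snd_mul, T.ap_mul _ _ hi, b i hi, d _ (T.ap_lt _ hi)]⟩ }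
  let P : Subgroup (G × U) := { P0 with
    inv_mem' := fun {x} hx => (Submonoid.powers_le (P := P0)).2 hx (mem_powers_iff_mem_zpowers.2 (inv_mem (mem_zpowers x))) }
  let f := (MonoidHom.fst G U).comp P.subtype
  have hf : Function.Injective f := (injective_iff_map_eq_one _).2 fun x hx => Subtype.ext (Prod.ext hx (hB.2 _ fun i hi => by
    simp only [isepOk, allL_iff, allLt_iff, force_eq, bor_eq_true, Nat.beq_eq, Bool.not_eq_true', ← Bool.not_eq_true, beq_iff_eq] at h1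
    refine ((h1 i hi _ (T.ap_lt x.1.2 (hB.1 i hi))).resolve_right (not_not.2 fun p hp => ?_)).symm
    obtain ⟨q, hq, a, b⟩ := x.2 p hp
    rw [show x.1.1 = 1 from hx, one_smul] at a
    exact ij p hp q hq a ▸ b i (hB.1 i hi)))
  have mm : ∀ l < r, (H13.genW gen ws l, T.el (ts l)) ∈ P := fun l hl p hp => by
    obtain ⟨a, t, τ, b⟩ := h2 l hl
    simp only [icdOk, band_eq_true, allLt_iff, force_eq, Nat.blt_eq, Nat.beq_eq, beq_iff_eq] at b
    obtain ⟨⟨c, d⟩, e, g⟩ := b.1 p hp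
    exact ⟨_, c, by rw [genW_eq, (S.act _ (lt p hp)).2, d], fun i hi => by rw [a.ap_el, g]; exact b.2 i hi _ e⟩
  have le : tl (H13.genW gen ws) r 0 ≤ f.range := tl_le fun l _ hl => ⟨⟨_, mm l hl⟩, rfl⟩
  refine ⟨((MonoidHom.snd G U).comp P.subtype).comp ((MonoidHom.ofInjective hf).symm.toMonoidHom.comp (inclusion le)), fun l hl => ?_⟩
  exact congrArg (fun x : P => x.1.2) (((MonoidHom.ofInjective hf).symm_apply_eq (y := ⟨_, mm l hl⟩)).2 rfl)

/-- every normal word with `r` letters from `k` on fails to commute with some letter -/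
noncomputable def ndF (ev : ℕ → ℕ → ℕ) (m n k r : ℕ) (f g : ℕ → ℕ) : Bool :=
  allLt (fun c => bor (Nat.beq c 0) (forceW (wd (fun _ => 2) r k c) fun w => force (f c) fun j => force (g c) fun i =>
    band (band (band (Nat.ble k j) (Nat.blt j n)) (Nat.blt i m)) (!Nat.beq (evW ev (w ++ [j]) i) (evW ev (j :: w) i)))) (Nat.pow 2 r)

theorem Sm.ndf [Finite G] {g : ℕ → G} (S : Sm m ev bs g pt) {a : ℕ} {rs : List (List ℕ)}
    (h1 : allLt (pcOk ev bs (fun _ => 2) (a + 1) false rs) (a + 1) = true) {k r : ℕ} (hk : k + r = a) {f f' : ℕ → ℕ}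
    (h : ndF ev m (a + 1) k r f f' = true) (A : H04.AES 2 (tl g (a + 1) k) (g a))
    (e : tl g (a + 1) a = zpowers (g a)) : tl g (a + 1) k ⊓ centralizer (tl g (a + 1) k : Set G) ≤ zpowers (g a) := fun x hx => by
  obtain ⟨c, hc, y, hy, rfl⟩ := (S.pc h1).1.nf (r := r) (by omega) hx.1
  rw [hk, e] at hy
  have := allLt_iff.1 h c (hc.trans_eq (po_const (p := 2) fun _ _ _ => rfl))
  simp only [bor_eq_true, band_eq_true, forceW_eq, force_eq, Nat.blt_eq, Nat.beq_eq, Nat.ble_eq, Bool.not_eq_true'] at this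
  rcases this with rfl | ⟨⟨⟨p, q⟩, s⟩, t⟩
  · rwa [evalW_wd_zero, one_mul]
  have u := hx.2 _ (mem_tl p q)
  rw [← mul_assoc, mul_assoc _ y, ← zpowers_le.2 A.cent hy _ (mem_tl p q), ← mul_assoc, mul_left_inj] at u
  refine absurd (S.inj _ (S.act _ s).1 _ (S.act _ s).1 ?_) (Nat.ne_of_beq_eq_false t)
  rw [← (S.act _ s).2, ← (S.act _ s).2, evalW_append, evalW_cons, evalW_cons, evalW_nil, mul_one, u]

/-- the elements normalising `Q` and centralising `x` modulo `Q` -/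
def cmQ (Q : Subgroup G) (x : G) : Subgroup G where
  carrier := {g | g ∈ normalizer (Q : Set G) ∧ g * x * g⁻¹ * x⁻¹ ∈ Q}
  one_mem' := ⟨one_mem _, by simp⟩
  mul_mem' {g h} a b := ⟨mul_mem a.1 b.1, by simpa [mul_assoc] using mul_mem ((mem_normalizer_iff.1 a.1 _).1 b.2) a.2⟩
  inv_mem' {g} a := ⟨inv_mem a.1, by simpa [mul_assoc] using (mem_normalizer_iff.1 (inv_mem a.1) _).1 (inv_mem a.2)⟩

theorem core23 {H U : Type*} [Group H] [Finite H] [Group U] [IsSimpleGroup U] {Q M : Subgroup H} {x c k y z : H} {a : ℕ} (θ : M →* U)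
    (hs : Function.Surjective θ) (cU : 5 ∣ Nat.card U) (cH : Nat.card H ≤ 2 * (Nat.card U * (2 ^ a * 3))) (cQ : Nat.card Q = 2 ^ a)
    (QM : Q ≤ M) (hx : x ∈ M) (kq : ∀ q (h : q ∈ Q), θ ⟨q, QM h⟩ = 1) (kx : θ ⟨x, hx⟩ = 1) (x3 : x ^ 3 = 1) (hM : M ≤ cmQ Q x)
    (nc : c ∈ normalizer (Q : Set H)) (cc : c * x * c⁻¹ * x ∈ Q) (hy : y ∈ Q) (hq : ∀ q ∈ Q, q * y = y * q ∨ q * y = z * y * q)
    (h1 : x * y ≠ y * x ∧ x * y ≠ z * y * x) (h2 : x ^ 2 * y ≠ y * x ^ 2 ∧ x ^ 2 * y ≠ z * y * x ^ 2) (k5 : k ^ 5 = 1) (ky : y * k ≠ k * y) :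
    ∃ _ : Q.Normal, generalizedFittingSubgroup H = Q ∧ ∃ (N : Subgroup H) (_ : N.Normal) (_ : M.Normal), Q ≤ N ∧ N ≤ M ∧
      Nat.card N = 3 * Nat.card Q ∧ Nonempty (M ⧸ N.subgroupOf M ≃* U) ∧ M.index = 2 := by
  have xq : x ∉ Q := fun h => (hq x h).elim h1.1 h1.2
  have cz := card_zpowers_prime Nat.prime_three x3 (by rintro rfl; exact xq (one_mem _))
  have xn := zpowers_le.2 (hM hx).1
  have cN := card_sup_norm xn (eq_bot_iff.2 fun s ⟨p, q⟩ => by_contra fun e => xq (zpowers_le.2 p ((zpowers_eq_of_mem Nat.prime_three cz q e).ge (mem_zpowers x))))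
  rw [cQ, cz] at cN
  have NM : Q ⊔ zpowers x ≤ M := sup_le QM (zpowers_le.2 hx)
  have l : (Q ⊔ zpowers x).subgroupOf M ≤ θ.ker := by
    rw [subgroupOf_sup QM (zpowers_le.2 hx)]
    exact sup_le (fun q h => kq q.1 h) fun s ⟨i, h⟩ => by
      rw [show s = ⟨x, hx⟩ ^ i from Subtype.ext h.symm]; exact zpow_mem (MonoidHom.mem_ker.2 kx) i
  have c1 := card_le_of_le l
  have c0 := (Nat.card_congr (subgroupOfEquivOfLe NM).toEquiv).trans cN
  have c2 := card_eq_card_quotient_mul_card_subgroup θ.ker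
  rw [Nat.card_congr (QuotientGroup.quotientKerEquivOfSurjective θ hs).toEquiv] at c2
  have c3 := M.index_mul_card
  have cn : c ∉ cmQ Q x := fun h => xq (by
    have := mul_mem (inv_mem h.2) cc
    rw [show (c * x * c⁻¹ * x⁻¹)⁻¹ * (c * x * c⁻¹ * x) = x ^ 2 by simp [sq, mul_assoc]] at this
    have := pow_mem this 2
    rwa [← pow_mul, pow_succ' x 3, x3, mul_one] at this)
  have i1 : M.index ≠ 1 := fun e => cn (hM (index_eq_one.1 e ▸ mem_top c))
  have i0 : M.index ≠ 0 := FiniteIndex.index_ne_zero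
  have := Finite.of_surjective θ hs
  have pU : 0 < Nat.card U := Nat.card_pos
  have p2 : 0 < 2 ^ a * 3 := by positivity
  rw [c0] at c1
  have c4 := Nat.mul_le_mul_left (Nat.card U) c1
  have i2 : M.index = 2 := le_antisymm (Nat.le_of_mul_le_mul_right (((Nat.mul_le_mul_left _ (c4.trans c2.ge)).trans c3.le).trans cH) (by positivity)) (by omega)
  have ke := eq_of_le_of_card_ge l (c0 ▸ Nat.le_of_mul_le_mul_left (by rw [i2] at c3; omega) pU)
  have all : ∀ K : Subgroup H, M ≤ K → c ∈ K → ∀ g, g ∈ K := fun K p q g => by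
    by_cases e : g ∈ M
    · exact p e
    simpa using mul_mem (p ((mul_mem_iff_of_index_two i2).2 (iff_of_false e fun r => cn (hM (inv_mem_iff.1 r))))) q
  have cM : cmQ Q x ≤ M := fun g hg => by_contra fun e => cn (by
    simpa using mul_mem (inv_mem hg) (hM ((mul_mem_iff_of_index_two i2).2 (iff_of_false e fun r => cn (hM r)))))
  have nQ : Q.Normal := normalizer_eq_top_iff.1 (eq_top_iff.2 fun g _ => all _ (fun g h => (hM h).1) nc g)
  have nn : ∀ g, g * x * g⁻¹ ∈ Q ⊔ zpowers x → g ∈ normalizer ((Q ⊔ zpowers x : Subgroup H) : Set H) := fun g h => mem_normalizer_fintype fun _ e =>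
    (sup_le (fun q p => mem_sup_left (nQ.conj_mem q p g)) (zpowers_le.2 h) : _ ≤ (Q ⊔ zpowers x).comap (MulAut.conj g).toMonoidHom) e
  have nN : (Q ⊔ zpowers x).Normal := normalizer_eq_top_iff.1 (eq_top_iff.2 fun g _ => all _
    (fun g h => nn g (by simpa using mul_mem (mem_sup_left (hM h).2) (mem_sup_right (mem_zpowers x))))
    (nn c (by simpa using mul_mem (mem_sup_left cc) (mem_sup_right (inv_mem (mem_zpowers x))))) g)
  have key : ∀ Y : Subgroup H, Y.Normal → (Y.subgroupOf M).map θ ≠ ⊤ → (∀ q ∈ Q, ∀ s ∈ zpowers x, q * s ∈ Y → s = 1) → Y ≤ Q := fun Y nY p q w hw => by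
    have r : ∀ v ∈ Y, v ∈ Q ⊔ zpowers x → v ∈ Q := fun v hv e => by
      obtain ⟨u, hu, s, hs, rfl⟩ := mem_sup_norm xn e
      rwa [q u hu s hs hv, mul_one]
    have wM := cM ⟨nQ.1 |> fun _ => (normalizer_eq_top_iff.2 nQ).ge (mem_top w), r _ (by simpa [mul_assoc] using mul_mem hw (nY.conj_mem _ (inv_mem hw) x))
      (mul_mem (nN.conj_mem _ (mem_sup_right (mem_zpowers x)) w) (mem_sup_right (inv_mem (mem_zpowers x))))⟩
    exact r w hw (ke.ge ((((Normal.map inferInstance θ hs).eq_bot_or_eq_top.resolve_right p).le ⟨⟨w, wM⟩, hw, rfl⟩ : θ ⟨w, wM⟩ = 1) : _ ∈ θ.ker))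
  have q2 : IsPGroup 2 Q := .of_card cQ
  have o : pCore 2 H = Q := le_antisymm (key _ inferInstance (fun e => by
      obtain ⟨i, hi⟩ := IsPGroup.iff_card.1 (e ▸ ((H02.pCore_isPGroup 2 H).comap_subtype.map θ) : IsPGroup 2 (⊤ : Subgroup U))
      rw [card_top] at hi
      exact absurd (Nat.prime_five.dvd_of_dvd_pow (hi ▸ cU)) (by decide)) fun q hq s hs e => by
    obtain ⟨i, hi⟩ := H02.pCore_isPGroup 2 H ⟨s, (mul_mem_cancel_left (H02.le_pCore q2 hq)).1 e⟩
    exact orderOf_eq_one_iff.1 (Nat.eq_one_of_dvd_coprimes (Nat.Coprime.pow_left i (by decide : Nat.Coprime 2 3))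
      (orderOf_dvd_of_pow_eq_one (congrArg Subtype.val hi)) (cz ▸ (zpowers x).orderOf_dvd_natCard hs))) (H02.le_pCore q2)
  have ce : centralizer (Q : Set H) ≤ Q := key _ inferInstance (fun e => by
      have kM : k ∈ M := by
        have := sq_mem_of_index_two i2 (k ^ 3)
        rwa [← pow_mul, pow_succ' k 5, k5, mul_one] at this
      obtain ⟨w, hw, e⟩ := e.ge (mem_top (θ ⟨k, kM⟩))
      have r : (w : H)⁻¹ * k ∈ Q ⊔ zpowers x := ke.ge (show w⁻¹ * ⟨k, kM⟩ ∈ θ.ker by rw [MonoidHom.mem_ker, map_mul, map_inv, e, inv_mul_cancel])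
      let π := QuotientGroup.mk' (centralizer (Q : Set H))
      have t : π k = π ((w : H)⁻¹ * k) := by rw [map_mul, map_inv, show π w = 1 from (QuotientGroup.eq_one_iff _).2 hw, inv_one, one_mul]
      refine ky ((QuotientGroup.eq_one_iff k).1 (orderOf_eq_one_iff.1 (Nat.eq_one_of_dvd_coprimes (a := 5) (b := 2 ^ a * 3)
        (Nat.Coprime.mul_right (Nat.Coprime.pow_right a (by decide)) (by decide)) (orderOf_dvd_of_pow_eq_one ?_) ?_) : π k = 1) y hy)
      · rw [← map_pow, k5, map_one]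
      · exact t ▸ (orderOf_map_dvd π _).trans (cN ▸ Subgroup.orderOf_dvd_natCard _ r)) fun q p s hs e => by
    obtain ⟨i, rfl⟩ := mem_powers_iff_mem_zpowers.2 hs
    have t : x ^ i * y = y * x ^ i ∨ x ^ i * y = z * y * x ^ i := (hq _ (inv_mem p)).imp
      (fun r => mul_left_cancel (a := q) (by rw [← mul_assoc, ← e y hy, ← mul_assoc, ← mul_assoc, ← mul_inv_eq_iff_eq_mul.1 (show _ * q⁻¹ = y by
        rw [mul_assoc, ← r, mul_inv_cancel_left])]))
      fun r => by rw [← inv_mul_cancel_left q (x ^ i * y), ← mul_assoc q, ← e y hy, ← mul_assoc, r, mul_assoc, inv_mul_cancel_left]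
    change x ^ i = 1
    rw [pow_eq_pow_mod i x3] at t ⊢
    have := Nat.mod_lt i (by decide : 0 < 3)
    interval_cases i % 3
    exacts [pow_zero x, absurd (pow_one x ▸ t) (not_or.2 h1), absurd t (not_or.2 h2)]
  exact ⟨nQ, by rw [(H22.fstar_eq_pCore_iff (p := 2)).2 (o.symm ▸ ce), o], _, nN, normal_of_index_eq_two i2, le_sup_left, NM, by rw [cN, cQ, mul_comm],
    ⟨(QuotientGroup.quotientMulEquivOfEq ke).trans (QuotientGroup.quotientKerEquivOfSurjective θ hs)⟩, i2⟩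

end H13
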