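import Mathlib
import Cfsg.Agent.S0051

/-! Part I of S5567: a central involution splits off an extension of `A₆`. -/

open Subgroup

namespace H13.KI
universe u

abbrev A6 := alternatingGroup (Fin 6)

def al : A6 := ⟨Equiv.swap 0 2 * Equiv.swap 4 5, Equiv.Perm.mem_alternatingGroup.2 (by decide)⟩
def ga : A6 := ⟨Equiv.swap 0 1 * Equiv.swap 1 2 * Equiv.swap 2 3 * Equiv.swap 4 5, Equiv.Perm.mem_alternatingGroup.2 (by decide)⟩

theorem inj : ∀ i j : Fin 4, ∀ e f : Fin 2, ga ^ i.1 * al ^ e.1 = ga ^ j.1 * al ^ f.1 → i = j ∧ e = f := by decide +kernel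

theorem cA : Nat.card A6 = 360 := by
  have := two_mul_card_alternatingGroup (α := Fin 6)
  rw [Fintype.card_perm, Fintype.card_fin, ← Nat.card_eq_fintype_card, show Nat.factorial 6 = 720 from rfl] at this
  change Nat.card (alternatingGroup (Fin 6)) = 360
  omega

variable {X : Type u} [Group X] [Finite X]

theorem split (z : X) (ψ : X →* A6) (cX : Nat.card X = 2160) (z1 : z ≠ 1) (z2 : z * z = 1) (zc : ∀ x, x * z = z * x)
    (su : Function.Surjective ψ) (zk : ψ z = 1) (h6 : ∀ x, ψ x * ψ x = 1 → x ^ 6 = 1) :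
    ∃ H : Subgroup X, H.index = 2 ∧ z ∉ H := by
  have inv : ∀ t : A6, t * t = 1 → ∃ a, a * a = 1 ∧ ψ a = t := fun t ht => by
    obtain ⟨x, rfl⟩ := su t
    refine ⟨x ^ 3, by rw [← pow_add]; exact h6 x ht, by rw [map_pow, pow_succ, pow_two, ht, one_mul]⟩
  obtain ⟨a, a2, pa⟩ := inv al (by decide +kernel)
  obtain ⟨b, b2, pb⟩ := inv (ga * al) (by decide +kernel)
  have ai : a⁻¹ = a := inv_eq_of_mul_eq_one_right a2
  have bi : b⁻¹ = b := inv_eq_of_mul_eq_one_right b2
  have p0 : ψ (b * a) = ga := by rw [map_mul, pa, pb]; decide +kernel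
  have c12 : (b * a) ^ 12 = 1 := by
    have := h6 ((b * a) ^ 2) (by rw [map_pow, p0]; decide +kernel)
    rwa [← pow_mul] at this
  obtain ⟨c, c4, pc, ac⟩ : ∃ c, c ^ 4 = 1 ∧ ψ c = ga ∧ a * c * a⁻¹ = c⁻¹ := by
    refine ⟨(b * a) ^ 9, by rw [← pow_mul, show 9 * 4 = 12 * 3 from rfl, pow_mul, c12, one_pow],
      by rw [map_pow, p0]; decide +kernel, ?_⟩
    rw [← conj_pow, ← inv_pow, mul_inv_rev, bi, mul_assoc, mul_assoc, mul_inv_cancel, mul_one, ai]
  have nf : ∀ g ∈ closure ({a, c} : Set X), ∃ i : ℤ, g = c ^ i ∨ g = c ^ i * a := fun g hg => by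
    have k : ∀ i : ℤ, a * c ^ i = c ^ (-i) * a := fun i => by
      rw [zpow_neg, ← inv_zpow, ← ac, conj_zpow]; group
    induction hg using closure_induction with
    | mem x hx => rcases hx with rfl | rfl; exacts [⟨0, Or.inr (by simp)⟩, ⟨1, Or.inl (by simp)⟩]
    | one => exact ⟨0, Or.inl (by simp)⟩
    | mul x y _ _ hx hy =>
      obtain ⟨i, rfl | rfl⟩ := hx <;> obtain ⟨j, rfl | rfl⟩ := hy
      · exact ⟨i + j, Or.inl (zpow_add _ _ _).symm⟩
      · exact ⟨i + j, Or.inr (by rw [zpow_add, mul_assoc])⟩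
      · exact ⟨i + -j, Or.inr (by rw [zpow_add, mul_assoc, k, mul_assoc])⟩
      · exact ⟨i + -j, Or.inl (by rw [zpow_add, mul_assoc, ← mul_assoc a, k, mul_assoc, a2, mul_one])⟩
    | inv x _ hx =>
      obtain ⟨i, rfl | rfl⟩ := hx
      · exact ⟨-i, Or.inl (zpow_neg _ _).symm⟩
      · exact ⟨i, Or.inr (by rw [mul_inv_rev, ai, ← zpow_neg, k, neg_neg])⟩
  have md : ∀ i : ℤ, ∃ j : Fin 4, c ^ i = c ^ j.1 := fun i => by
    refine ⟨⟨(i % 4).toNat, by omega⟩, ?_⟩
    have : c ^ (4 : ℤ) = 1 := by exact_mod_cast c4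
    rw [zpow_eq_zpow_emod i this, ← zpow_natCast]; congr 1; simp only; omega
  set A := closure ({a, c} : Set X)
  have aA : a ∈ A := subset_closure (by simp)
  have cA : c ∈ A := subset_closure (by simp)
  let f : Fin 4 × Fin 2 → A := fun p => ⟨c ^ p.1.1 * a ^ p.2.1, A.mul_mem (A.pow_mem cA _) (A.pow_mem aA _)⟩
  have fs : Function.Surjective f := fun g => by
    obtain ⟨i, h⟩ := nf g g.2
    obtain ⟨j, e⟩ := md i
    rcases h with h | h
    · exact ⟨(j, 0), Subtype.ext (by simp [f, h, e])⟩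
    · exact ⟨(j, 1), Subtype.ext (by simp [f, h, e])⟩
  have pf : ∀ p, ψ (f p) = ga ^ p.1.1 * al ^ p.2.1 := fun p => by simp [f, pa, pc]
  have fi : Function.Injective f := fun p q e => by
    have := inj p.1 q.1 p.2 q.2 (by rw [← pf, ← pf, e])
    exact Prod.ext this.1 this.2
  have c8 : Nat.card A = 2 ^ 3 := by rw [← Nat.card_eq_of_bijective f ⟨fi, fs⟩]; simp
  have zA : z ∉ A := fun h => by
    obtain ⟨p, e⟩ := fs ⟨z, h⟩
    have := inj p.1 0 p.2 0 (by rw [← pf, e]; simpa using zk)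
    apply z1
    have e' := congrArg Subtype.val e
    simpa [f, this.1, this.2] using e'.symm
  have oz : orderOf z = 2 := orderOf_eq_prime (by rw [pow_two, z2]) z1
  have cK : Nat.card (zpowers z) = 2 := by rw [Nat.card_zpowers, oz]
  have nK : (zpowers z).Normal := ⟨fun n hn g => by
    obtain ⟨i, rfl⟩ := hn
    exact ⟨i, by simp only; rw [((show Commute g z from zc g).zpow_right i).eq, mul_inv_cancel_right]⟩⟩
  have : Fact (Nat.Prime 2) := ⟨by decide⟩
  have pU : IsPGroup 2 (zpowers z ⊔ A : Subgroup X) :=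
    (IsPGroup.of_card (n := 1) cK).to_sup_of_normal_left (IsPGroup.of_card c8)
  obtain ⟨k, hk⟩ := IsPGroup.iff_card.1 pU
  have lt : Nat.card A < Nat.card (zpowers z ⊔ A : Subgroup X) :=
    lt_of_le_of_ne (card_le_of_le le_sup_right) fun e =>
      zA ((eq_of_le_of_card_ge le_sup_right e.ge).ge (le_sup_left (b := A) (mem_zpowers z)))
  have k4 : 4 ≤ k := by rw [c8, hk] at lt; exact (Nat.pow_lt_pow_iff_right (by decide)).1 lt
  have mi := (zpowers z ⊔ A : Subgroup X).card_mul_index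
  obtain ⟨m, rfl⟩ := Nat.exists_eq_add_of_le k4
  rw [hk, cX, pow_add, mul_assoc] at mi
  have co : (Nat.card (zpowers z)).Coprime (zpowers z ⊔ A : Subgroup X).index := by
    rw [cK, Nat.Prime.coprime_iff_not_dvd (by decide)]
    intro h
    have := Dvd.dvd.mul_left h (2 ^ m)
    omega
  have dj : A ⊓ zpowers z = ⊥ := by
    rcases (inf_le_right : A ⊓ zpowers z ≤ zpowers z).eq_or_lt with e | e
    · exact absurd (e.ge (mem_zpowers z)).1 zA
    · have d := card_dvd_of_le e.le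
      rw [cK] at d
      rcases (Nat.dvd_prime (by decide)).1 d with d | d
      · exact card_eq_one.1 d
      · exact absurd (eq_of_le_of_card_ge e.le (by rw [cK, d])) e.ne
  obtain ⟨H, hH⟩ := Cfsg.Agent.S0051.result (zpowers z) (zpowers z ⊔ A) le_sup_left co A le_sup_right dj rfl
  exact ⟨H, by rw [← cK]; exact hH.index_eq_card, fun h => z1 (disjoint_def.1 hH.disjoint (mem_zpowers z) h)⟩

theorem sqs (z : X) (ψ : X →* A6) (cX : Nat.card X = 2160) (su : Function.Surjective ψ) {H : Subgroup X} (hi : H.index = 2)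
    (hz : z ∉ H) : Nat.card (closure (Set.range fun x : X => x * x)) = 1080 ∧ z ∉ closure (Set.range fun x : X => x * x) := by
  set S := closure (Set.range fun x : X => x * x)
  have SH : S ≤ H := (closure_le _).2 (by rintro _ ⟨x, rfl⟩; exact H.mul_self_mem_of_index_two hi x)
  have sq : ∀ x, x * x ∈ S := fun x => subset_closure ⟨x, rfl⟩
  have nS : S.Normal := ⟨fun n hn g => by
    have : S.map (MulAut.conj g).toMonoidHom ≤ S := by
      rw [MonoidHom.map_closure]
      exact (closure_le _).2 (by rintro _ ⟨_, ⟨x, rfl⟩, rfl⟩; simpa [mul_assoc] using sq (g * x * g⁻¹))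
    exact this ⟨n, hn, rfl⟩⟩
  have : IsSimpleGroup A6 := alternatingGroup.isSimpleGroup (by simp)
  have t : S.map ψ = ⊤ := ((nS.map ψ su).eq_bot_or_eq_top).resolve_left fun e => by
    obtain ⟨c, pc⟩ := su ga
    have := mem_bot.1 (e.le ⟨_, sq c, rfl⟩)
    rw [map_mul, pc] at this
    exact absurd this (by decide +kernel)
  have d : 360 ∣ Nat.card S := by
    have := card_map_dvd (H := S) ψ
    rwa [t, card_top, show Nat.card A6 = 360 from cA] at this
  have mi := S.card_mul_index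
  have n3 : ¬ 3 ∣ S.index := fun h => by
    have : Fact (Nat.Prime 3) := ⟨by decide⟩
    obtain ⟨q, hq⟩ := exists_prime_orderOf_dvd_card' 3 (G := X ⧸ S) h
    obtain ⟨x, rfl⟩ := QuotientGroup.mk_surjective q
    have := orderOf_dvd_of_pow_eq_one (x := (x : X ⧸ S)) (n := 2) (by
      rw [pow_two, ← QuotientGroup.mk_mul, QuotientGroup.eq_one_iff]; exact sq x)
    rw [hq] at this
    omega
  have e2 : 2 ∣ S.index := hi ▸ index_dvd_of_le SH
  obtain ⟨m, hm⟩ := d
  obtain ⟨n, hn⟩ := e2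
  rw [cX, hm, hn] at mi
  have : m * n = 3 := by nlinarith
  have n1 : n = 1 := ((Nat.dvd_prime (by decide)).1 (Dvd.intro_left m this)).resolve_right fun e => n3 (by rw [hn, e]; decide)
  exact ⟨by rw [hm]; subst n1; omega, fun h => hz (SH h)⟩

theorem i' {G : Type u} [Group G] [Finite G] (X L : Subgroup G) (z l : G) (zX : z ∈ X) (ψ : X →* A6) (XL : X ≤ L)
    (cX : Nat.card X = 2160) (cL : Nat.card L = 4320) (lL : l ∈ L) (lX : l ∉ X) (l2 : l * l = 1) (z1 : z ≠ 1) (z2 : z * z = 1)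
    (zc : ∀ x ∈ L, x * z = z * x) (su : Function.Surjective ψ) (zk : ψ ⟨z, zX⟩ = 1)
    (h6 : ∀ x : X, ψ x * ψ x = 1 → x ^ 6 = 1) : ∃ L1 ≤ L, z ∉ L1 ∧ Nat.card L1 = 2160 := by
  obtain ⟨H, hi, hz⟩ := split ⟨z, zX⟩ ψ cX (fun e => z1 (congrArg Subtype.val e)) (Subtype.ext z2)
    (fun x => Subtype.ext (zc x (XL x.2))) su zk h6
  obtain ⟨cS, zS⟩ := sqs ⟨z, zX⟩ ψ cX su hi hz
  have li : l⁻¹ = l := inv_eq_of_mul_eq_one_right l2
  have ix : (X.subgroupOf L).index = 2 := by
    have := (X.subgroupOf L).card_mul_index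
    rw [Nat.card_congr (subgroupOfEquivOfLe XL).toEquiv, cX, cL] at this
    omega
  have lx : ∀ x ∈ X, l * x * l⁻¹ ∈ X := fun x hx =>
    (normal_of_index_eq_two ix).conj_mem ⟨x, XL hx⟩ hx ⟨l, lL⟩
  set S := (closure (Set.range fun x : X => x * x)).map X.subtype with hS
  have SX : S ≤ X := map_subtype_le _
  have cj : ∀ s ∈ S, l * s * l ∈ S := fun s hs => by
    have : S.map (MulAut.conj l).toMonoidHom ≤ S := by
      rw [hS, MonoidHom.map_closure, MonoidHom.map_closure]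
      refine (closure_le _).2 ?_
      rintro _ ⟨_, ⟨_, ⟨x, rfl⟩, rfl⟩, rfl⟩
      exact subset_closure ⟨_, ⟨⟨_, lx x x.2⟩, rfl⟩, by simp [mul_assoc]⟩
    simpa [li] using this ⟨s, hs, rfl⟩
  let L1 : Subgroup G :=
    { carrier := {g | g ∈ S ∨ g * l ∈ S}
      one_mem' := Or.inl S.one_mem
      mul_mem' := by
        rintro a b (h | h) (k | k)
        · exact Or.inl (S.mul_mem h k)
        · exact Or.inr (by simpa [mul_assoc] using S.mul_mem h k)
        · exact Or.inr (by simpa [mul_assoc, ← mul_assoc l l, l2] using S.mul_mem h (cj _ k))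
        · exact Or.inl (by simpa [mul_assoc, ← mul_assoc l l, l2] using S.mul_mem h (cj _ k))
      inv_mem' := by
        rintro a (h | h)
        · exact Or.inl (S.inv_mem h)
        · exact Or.inr (by simpa [mul_assoc, ← mul_assoc l l, l2, li] using cj _ (S.inv_mem h)) }
  have nb : ∀ g, g ∈ S → g * l ∉ S := fun g h k => lX (by simpa using X.mul_mem (X.inv_mem (SX h)) (SX k))
  have zs : z ∉ S := fun ⟨y, h, e⟩ => zS ((show y = ⟨z, zX⟩ from Subtype.ext e) ▸ h)
  refine ⟨L1, ?_, ?_, ?_⟩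
  · rintro g (h | h)
    · exact XL (SX h)
    · simpa using L.mul_mem (XL (SX h)) (L.inv_mem lL)
  · rintro (h | h)
    · exact zs h
    · exact lX (by simpa using X.mul_mem (X.inv_mem zX) (SX h))
  · have SL : S ≤ L1 := fun g h => Or.inl h
    have i2 : (S.subgroupOf L1).index = 2 := index_eq_two_iff.2 ⟨⟨l, Or.inr (l2 ▸ S.one_mem)⟩, fun b => by
      rcases b.2 with h | h
      · exact Or.inr ⟨h, nb _ h⟩
      · exact Or.inl ⟨h, fun k => nb _ k h⟩⟩
    have := (S.subgroupOf L1).card_mul_index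
    rw [Nat.card_congr (subgroupOfEquivOfLe SL).toEquiv, i2, hS, card_map_of_injective X.subtype_injective, cS] at this
    omega

theorem i : ∀ {G : Type u} [Group G] [Finite G] (X L : Subgroup G) (z l : G) (zX : z ∈ X) (ψ : X →* A6), X ≤ L →
    Nat.card X = 2160 → Nat.card L = 4320 → l ∈ L → l ∉ X → l * l = 1 → z ≠ 1 → z * z = 1 → (∀ x ∈ L, x * z = z * x) →
    Function.Surjective ψ → ψ ⟨z, zX⟩ = 1 → (∀ x : X, ψ x * ψ x = 1 → x ^ 6 = 1) →
    ∃ L1 ≤ L, z ∉ L1 ∧ Nat.card L1 = 2160 := i'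

end H13.KI
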