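import Cfsg.Agent.H23.K0

/-! Part S of S5567: a complement to `Y` in the stabiliser of `B`. -/

set_option autoImplicit false
open Cfsg BG Subgroup H01.XS Cfsg.Agent.H06.J Cfsg.Agent.H23.K

namespace H13.KS
universe u

theorem n8 (H : Subgroup A6) : H.index ≠ 8 := fun h => by
  have cA : Nat.card A6 = 360 := by rw [Nat.card_eq_fintype_card, card_alternatingGroup]; rfl
  have : IsSimpleGroup A6 := alternatingGroup.isSimpleGroup (by simp)
  have : Fact (Nat.Prime 5) := ⟨by decide⟩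
  have cH : Nat.card H = 45 := by have := H.card_mul_index; rw [h, cA] at this; omega
  obtain ⟨P⟩ : Nonempty (Sylow 5 H) := inferInstance
  have cP : Nat.card P = 5 := by rw [P.card_eq_multiplicity, cH]; decide +kernel
  have iP : (P : Subgroup H).index = 9 := by have := (P : Subgroup H).card_mul_index; rw [cP, cH] at this; omega
  have n1 : Nat.card (Sylow 5 H) = 1 := by
    have a := card_sylow_modEq_one 5 H
    have b := P.card_dvd_index
    rw [iP] at b
    have := Nat.le_of_dvd (by decide) b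
    unfold Nat.ModEq at a
    interval_cases Nat.card (Sylow 5 H) <;> omega
  have nP : (P : Subgroup H).Normal := normalizer_eq_top_iff.1 (index_eq_one.1 (P.card_eq_index_normalizer ▸ n1))
  have c5 : Nat.card ((P : Subgroup H).map H.subtype) = 5 := by rw [card_map_of_injective H.subtype_injective, cP]
  let R : Sylow 5 A6 := Sylow.ofCard ((P : Subgroup H).map H.subtype) (by rw [c5, cA]; decide +kernel)
  have le : H ≤ normalizer (R : Set A6) := (normal_subgroupOf_iff_le_normalizer (map_subtype_le _)).1 (by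
    rw [subgroupOf, comap_map_eq_self_of_injective H.subtype_injective]; exact nP)
  have a := card_sylow_modEq_one 5 A6
  have b := index_dvd_of_le le
  rw [h, ← R.card_eq_index_normalizer] at b
  have n2 : Nat.card (Sylow 5 A6) = 1 := by
    have := Nat.le_of_dvd (by decide) b
    unfold Nat.ModEq at a
    interval_cases Nat.card (Sylow 5 A6) <;> omega
  have nR : (R : Subgroup A6).Normal := normalizer_eq_top_iff.1 (index_eq_one.1 (R.card_eq_index_normalizer ▸ n2))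
  have c5' : Nat.card (R : Subgroup A6) = 5 := c5
  rcases nR.eq_bot_or_eq_top with e | e
  · rw [e, card_bot] at c5'; omega
  · rw [e, card_top, cA] at c5'; omega

variable {Γ : Type u} [Group Γ] [Finite Γ] {d : Γ} {M K Y : Subgroup Γ}

theorem cov (h : Hk d M K Y) {J : Subgroup Γ} (JK : J ≤ K) (dJ : d ∈ J) (i : J.relIndex K = 16) :
    ∀ k ∈ K, ∃ l ∈ J, ∃ y ∈ Y, k = l * y := by
  obtain ⟨φ, su, ke⟩ := h.ph
  have le : J ⊔ Y ≤ K := sup_le JK h.hx.YK
  have d16 : (J ⊔ Y).relIndex K ∣ 16 := i ▸ relIndex_dvd_of_le_left K le_sup_left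
  have e : (((J ⊔ Y).subgroupOf K).map φ).index = (J ⊔ Y).relIndex K := index_map_eq _ su fun k hk => by
    obtain ⟨y, hy, n, e⟩ := (ke k).1 hk
    exact mem_subgroupOf.2 (e ▸ mul_mem (mem_sup_right hy) (pow_mem (mem_sup_left dJ) n))
  have d360 := (((J ⊔ Y).subgroupOf K).map φ).index_dvd_card
  rw [Nat.card_eq_fintype_card, card_alternatingGroup, e, show (Fintype.card (Fin 6)).factorial / 2 = 360 from rfl] at d360
  have n := n8 (((J ⊔ Y).subgroupOf K).map φ)
  rw [e] at n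
  have l5 : (J ⊔ Y).relIndex K ≤ 5 := by
    have := Nat.le_of_dvd (by decide) d16
    interval_cases (J ⊔ Y).relIndex K <;> omega
  intro k hk
  have m : k ∈ ((J ⊔ Y : Subgroup Γ) : Set Γ) := h.hx.s1 _ le le_sup_right (mem_sup_left dJ) l5 hk
  rw [coe_mul_of_left_le_normalizer_right J Y (fun j hj => mem_normalizer_fintype fun y hy => h.hx.nY j (JK hj) y hy)] at m
  obtain ⟨l, hl, y, hy, e⟩ := m
  exact ⟨l, hl, y, hy, e.symm⟩

theorem s : SStmt.{u} := by
  intro G _ _ z Q V _ _ _ Γ _ _ f π ν T d M β q s K Y B A δ c c2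
  have g := s.gm
  have h := c.hk
  let St : Subgroup Γ :=
    { carrier := {x | ∀ v ∈ B, T x v ∈ B}
      one_mem' := fun v hv => by rwa [g.one]
      mul_mem' := fun a b v hv => by rw [g.mul]; exact a _ (b v hv)
      inv_mem' := fun {x} a v hv => by
        have p : ∀ n : ℕ, T (x ^ n) v ∈ B := fun n => by
          induction n with
          | zero => rwa [pow_zero, g.one]
          | succ n ih => rw [pow_succ', g.mul]; exact a _ ih
        have : x⁻¹ = x ^ (orderOf x - 1) := inv_eq_of_mul_eq_one_right (by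
          rw [← pow_succ', Nat.sub_add_cancel (orderOf_pos x), pow_orderOf_eq_one])
        rw [this]; exact p _ }
  have nM : M.Normal := normal_of_index_eq_two g.Mi
  have nY : ∀ x ∈ St, ∀ y ∈ Y, x * y * x⁻¹ ∈ Y := fun x hx y hy => c2.fB _ fun v hv => by
    rw [g.mul, g.mul, (c.pj.mB _).1 (St.inv_mem hx v hv) y hy, ← g.mul, mul_inv_cancel, g.one]
  have SM : ∀ x ∈ St, x ∈ M → x ∈ K := fun x a b => by
    rcases h.mx (St ⊓ M) (le_inf c.pj.KB h.KM) inf_le_right with e | e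
    · exact e.le ⟨a, b⟩
    · obtain ⟨m, hm, y, hy, n⟩ := h.nY
      exact absurd (nY m (e.ge hm).1 y hy) n
  have cM : Nat.card M = 1330560 := by have := M.card_mul_index; rw [g.Mi, g.cΓ] at this; omega
  have crel : ∀ {H L : Subgroup Γ}, H ≤ L → Nat.card H * H.relIndex L = Nat.card L := fun {H L} a => by
    rw [← Nat.card_congr (subgroupOfEquivOfLe a).toEquiv]; exact (H.subgroupOf L).card_mul_index
  have cK : Nat.card K = 17280 := by have := crel h.KM; rw [h.iK, cM] at this; omega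
  have fs : Function.Surjective f := fun k => let ⟨x, a, b⟩ := s.sur k; ⟨⟨x, a⟩, (s.pf _).trans b⟩
  have iS : St.index = 77 := by
    have e : St.comap f = (N_(A) ⊓ C_[z]).subgroupOf C_[z] := by
      ext x
      rw [mem_comap, s.pf, mem_subgroupOf]
      exact ⟨fun a => ⟨(c2.mN x x.2).2 a, x.2⟩, fun a => (c2.mN x x.2).1 a.1⟩
    have e1 := (St.comap f).card_mul_index
    rw [index_comap_of_surjective _ fs, e, Nat.card_congr (subgroupOfEquivOfLe inf_le_right).toEquiv, c2.cN] at e1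
    have e2 := f.ker.card_mul_index
    have kQ : f.ker = Q.subgroupOf C_[z] := by
      ext x; rw [MonoidHom.mem_ker, s.pf, mem_subgroupOf]; exact s.ker x x.2
    have Qz : Q ≤ C_[z] := s.md.lx.le
    rw [index_ker, MonoidHom.range_eq_top.2 fs, card_top, g.cΓ, kQ, Nat.card_congr (subgroupOfEquivOfLe Qz).toEquiv,
      s.card] at e2
    omega
  obtain ⟨t, tS, tM, t2⟩ : ∃ t ∈ St, t ∉ M ∧ t * t = 1 := by
    obtain ⟨x, xM, x2⟩ := c.ou
    have : Fact (Nat.Prime 2) := ⟨by decide⟩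
    have pg : IsPGroup 2 (zpowers x) := IsPGroup.of_card (n := 1) (by
      rw [Nat.card_zpowers, pow_one]; exact orderOf_eq_prime (by rw [pow_two, x2]) fun e => xM (e ▸ M.one_mem))
    obtain ⟨p, hp⟩ := pg.nonempty_fixed_point_of_prime_not_dvd_card (Γ ⧸ St) (by rw [← index, iS]; decide)
    obtain ⟨y, rfl⟩ := QuotientGroup.mk_surjective p
    have e : ((x * y : Γ) : Γ ⧸ St) = y := hp ⟨x, mem_zpowers x⟩
    refine ⟨y⁻¹ * x * y, by simpa [mul_assoc] using QuotientGroup.eq.1 e.symm, fun a => xM ?_,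
      by simp [mul_assoc, ← mul_assoc x x, x2]⟩
    simpa [mul_assoc] using nM.conj_mem _ a y
  obtain ⟨g0, gM, i16, orb⟩ := h.orb
  have gK : g0 ∉ K := fun a => by
    have : K ≤ K ⊓ cj g0 K := fun k hk => ⟨hk, mem_cj.2 (K.mul_mem (K.mul_mem (K.inv_mem a) hk) a)⟩
    rw [relIndex_eq_one.2 this] at i16; omega
  have c0 : Nat.card ↥(K ⊓ cj g0 K) = 1080 := by
    have := crel (inf_le_left : K ⊓ cj g0 K ≤ K); rw [i16, cK] at this; omega
  have dd : g0⁻¹ * d * g0 = d := by rw [mul_assoc, ← g.Md g0 gM, inv_mul_cancel_left]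
  have cv := cov h inf_le_left ⟨h.hx.dK, mem_cj.2 (dd.symm ▸ h.hx.dK)⟩ i16
  have KL : K ⊓ cj g0 K ≤ St ⊓ cj g0 St := fun k hk => ⟨c.pj.KB k hk.1, mem_cj.2 (c.pj.KB _ (mem_cj.1 hk.2))⟩
  have LM : (St ⊓ cj g0 St) ⊓ M = K ⊓ cj g0 K := le_antisymm (fun x a => ⟨SM x a.1.1 a.2, mem_cj.2 (SM _ (mem_cj.1 a.1.2)
    (M.mul_mem (M.mul_mem (M.inv_mem gM) a.2) gM))⟩) (le_inf KL (inf_le_left.trans h.KM))
  have LY : (St ⊓ cj g0 St) ⊓ Y = ⊥ := eq_bot_iff.2 fun y hy => by
    have y0 : y ∈ K ⊓ cj g0 K := LM.le ⟨hy.1, h.KM (h.hx.YK hy.2)⟩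
    let m : ↥(K ⊓ cj g0 K) × Y → K := fun p => ⟨p.1 * p.2, K.mul_mem p.1.2.1 (h.hx.YK p.2.2)⟩
    have ms : Function.Surjective m := fun k =>
      let ⟨l, a, y, b, e⟩ := cv k k.2; ⟨(⟨l, a⟩, ⟨y, b⟩), Subtype.ext e.symm⟩
    have := (ms.bijective_of_nat_card_le (by rw [Nat.card_prod, c0, h.hx.cY, cK])).1
      (a₁ := (⟨y, y0⟩, 1)) (a₂ := (1, ⟨y, hy.2⟩)) (Subtype.ext (by simp [m]))
    exact congrArg (fun p => (p.1 : Γ)) this
  have nK : ∀ x ∈ St, ∀ k ∈ K, x * k * x⁻¹ ∈ K := fun x a k b =>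
    SM _ (St.mul_mem (St.mul_mem a (c.pj.KB k b)) (St.inv_mem a)) (nM.conj_mem k (h.KM b) x)
  obtain ⟨k, kK, hk⟩ : ∃ k ∈ K, g0⁻¹ * (k⁻¹ * t) * g0 ∈ St := by
    rcases orb (t * g0 * t⁻¹) (nM.conj_mem _ gM t) with a | ⟨k, a, k', b, e⟩ | a
    · exact absurd (by simpa [mul_assoc] using nK _ (St.inv_mem tS) _ a) gK
    · refine ⟨k, a, ?_⟩
      have : g0⁻¹ * (k⁻¹ * t) * g0 = g0⁻¹ * k⁻¹ * (t * g0 * t⁻¹) * t := by group
      rw [this, e]
      simpa [mul_assoc] using St.mul_mem (c.pj.KB k' b) tS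
    · have e : K ⊓ cj (t * g0 * t⁻¹) K = cj t (K ⊓ cj g0 K) := by
        ext x
        simp only [mem_inf, mem_cj]
        refine and_congr ⟨fun a => by simpa using nK _ (St.inv_mem tS) _ a, fun a => by simpa [mul_assoc] using nK _ tS _ a⟩
          ⟨fun a => by simpa [mul_assoc] using nK _ (St.inv_mem tS) _ a, fun a => by simpa [mul_assoc] using nK _ tS _ a⟩
      have := crel (inf_le_left : K ⊓ cj (t * g0 * t⁻¹) K ≤ K)
      rw [a, e, cj, card_map_of_injective (MulAut.conj t).injective, c0, cK] at this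
      omega
  obtain ⟨l, lK, y, yY, e⟩ := cv k⁻¹ (K.inv_mem kK)
  have oL : y * t ∈ St ⊓ cj g0 St := by
    have := (St ⊓ cj g0 St).mul_mem ((St ⊓ cj g0 St).inv_mem (KL lK))
      (⟨St.mul_mem (St.inv_mem (c.pj.KB k kK)) tS, mem_cj.2 hk⟩ : k⁻¹ * t ∈ St ⊓ cj g0 St)
    rw [e] at this
    simpa [mul_assoc] using this
  have oM : y * t ∉ M := fun a => tM (by simpa using M.mul_mem (M.inv_mem (h.KM (h.hx.YK yY))) a)
  have sB' : ∀ x ∈ St ⊓ cj g0 St, ∀ v ∈ B.map (T g0), T x v ∈ B.map (T g0) := by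
    rintro x a _ ⟨v, hv, rfl⟩
    exact ⟨_, mem_cj.1 a.2 v hv, by rw [← g.mul, ← g.mul]; congr 2; group⟩
  have ti : Function.Injective (T g0) := fun u v e => by
    simpa [← g.mul, g.one] using congrArg (T g0⁻¹) e
  have cB' : Nat.card (B.map (T g0)) = 64 := by rw [AddSubgroup.card_map_of_injective ti, c.pj.cB]
  refine ⟨St ⊓ cj g0 St, B.map (T g0), cB', ?_, ?_, fun x a => a.1, sB', KL ⟨h.hx.dK, mem_cj.2 (dd.symm ▸ h.hx.dK)⟩, LY, ?_,
    LM.le.trans inf_le_left, fun k a => let ⟨l, b, r⟩ := cv k a; ⟨l, KL b, r⟩, _, oL, oM, ?_⟩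
  · rcases c.pj.w64 (B ⊓ B.map (T g0)) (fun k a v hv => by
      obtain ⟨l, b, y, p, rfl⟩ := cv k a
      rw [g.mul, (c.pj.mB v).1 hv.1 y p]
      exact ⟨(KL b).1 v hv.1, sB' l (KL b) v hv.2⟩) with a | a | a
    · exact a
    · have := AddSubgroup.card_le_of_le (a.ge.trans inf_le_left)
      rw [AddSubgroup.card_top, g.card, c.pj.cB] at this
      omega
    · have a1 := AddSubgroup.eq_of_le_of_card_ge (inf_le_right : B ⊓ B.map (T g0) ≤ _) (by omega)
      exact absurd (SM g0 (fun v hv => (a1.ge ⟨v, hv, rfl⟩).1) gM) gK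
  · rintro _ ⟨v, hv, rfl⟩
    rw [g.qT]; exact c.pj.qB v hv
  · have := crel (inf_le_left : (St ⊓ cj g0 St) ⊓ M ≤ St ⊓ cj g0 St)
    have r : ((St ⊓ cj g0 St) ⊓ M).relIndex (St ⊓ cj g0 St) = 2 := by
      rw [inf_relIndex_left]
      exact ((Nat.dvd_prime (by decide)).1 (g.Mi ▸ relIndex_dvd_index_of_normal M _)).resolve_left
        fun e => oM (relIndex_eq_one.1 e oL)
    rw [r, LM, c0] at this
    omega
  · have ti' : t⁻¹ = t := inv_eq_of_mul_eq_one_right t2
    exact mem_bot.1 (LY.le ⟨(St ⊓ cj g0 St).mul_mem oL oL, by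
      simpa [mul_assoc, ti'] using Y.mul_mem yY (nY t tS y yY)⟩)

end H13.KS
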