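import Cfsg.Agent.H13.ON
import Cfsg.Agent.H13.Pair
import Cfsg.Agent.S0243

/-! The subgroup `L3(7):2` of the O'Nan group. -/

set_option maxRecDepth 100000

namespace H13.ON
open H14.PK H14.PK.TS H27.PKx H27.MG Cfsg

def qPT : ℕ := nat_lit 0x1b1d4e873391c4e230371b4d86b351a4d22833194c86331184c2202f174b85b2d164b2182b154a85329144a21027134984b251249208240188a44219088241001
def qPs : List (ℕ × ℕ) := [(nat_lit 0x133091a, nat_lit 0x10d0589d9c74de10b91addb60087164920c46caedbb0be607239ce231b55732a83437ea597960482d8fa54), (nat_lit 0x271225e, nat_lit 0x1c9c0a98ae1da4678b978b7088b5d115d72943cca7d6a30a4c38b4012453f41ef8d179b494b1a9b14c6360)]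
def qLs : List ℕ := [nat_lit 0x10d0589d9c74de10b91addb60087164920c46caedbb0be607239ce231b55732a83437ea597960482d8fa54, nat_lit 0x1c9c0a98ae1da4678b978b7088b5d115d72943cca7d6a30a4c38b4012453f41ef8d179b494b1a9b14c6360]
def qbs : List ℕ := [nat_lit 0, nat_lit 1, nat_lit 8, nat_lit 2, nat_lit 9]

theorem model (F : Type*) [Field F] [Fintype F] (hF : Fintype.card F = 7) :
    ∃ S : TS (Matrix.ProjectiveSpecialLinearGroup (Fin 3) F) 6 57, Mdl S qLs qbs 1876896 := by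
  let C := FC.prime F (p := 7) (s := 3) (by norm_num) hF (by norm_num)
  have hN : Nat.card (Matrix.ProjectiveSpecialLinearGroup (Fin 3) F) = 1876896 := by
    have := Cfsg.Agent.S0243.result hF 3 (by norm_num)
    simp [Fin.prod_univ_succ] at this
    omega
  obtain ⟨S, h, -⟩ := C.model (Equiv.refl _) (slToMat 3 F) (QuotientGroup.mk' (Subgroup.center (Matrix.SpecialLinearGroup (Fin 3) F))) (pj := true) (PT := qPT) (w := 6)
    (n := 57) (by norm_num) (by norm_num) (by decide +kernel) (Ps := qPs)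
    (fun p hp => C.exists_SL (Equiv.refl _) (k := 133) (allL_iff.1 (by decide +kernel : allL (fun p => slOk (adP 7) (muP 7) 3 3 7 133 p.1) qPs = true) p hp))
    (allL_iff.1 (by decide +kernel)) hN (pr := [[nat_lit 1, nat_lit 1, nat_lit 0, nat_lit 1, nat_lit 0, nat_lit 0],
   [nat_lit 0, nat_lit 2, nat_lit 2],
   [nat_lit 2, nat_lit 3, nat_lit 2, nat_lit 1, nat_lit 2],
   [nat_lit 1, nat_lit 1, nat_lit 0, nat_lit 0, nat_lit 0],
   [nat_lit 0, nat_lit 1, nat_lit 1],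
   [nat_lit 1, nat_lit 2, nat_lit 3, nat_lit 3, nat_lit 1, nat_lit 2],
   [nat_lit 0, nat_lit 4, nat_lit 2, nat_lit 4, nat_lit 0],
   [nat_lit 2, nat_lit 0, nat_lit 5, nat_lit 1, nat_lit 3, nat_lit 5, nat_lit 4, nat_lit 0, nat_lit 1, nat_lit 5, nat_lit 3],
   [nat_lit 6, nat_lit 1, nat_lit 3, nat_lit 1, nat_lit 4, nat_lit 2, nat_lit 1, nat_lit 6, nat_lit 4, nat_lit 2, nat_lit 5, nat_lit 5],
   [nat_lit 2, nat_lit 3, nat_lit 6, nat_lit 5, nat_lit 5, nat_lit 5, nat_lit 2, nat_lit 2, nat_lit 5, nat_lit 3, nat_lit 2],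
   [nat_lit 3, nat_lit 4, nat_lit 8, nat_lit 5, nat_lit 5, nat_lit 5, nat_lit 5, nat_lit 6, nat_lit 8, nat_lit 4, nat_lit 8, nat_lit 3],
   [nat_lit 2, nat_lit 1, nat_lit 3, nat_lit 3, nat_lit 1],
   [nat_lit 1, nat_lit 1, nat_lit 4, nat_lit 3, nat_lit 3, nat_lit 3],
   [nat_lit 1, nat_lit 1, nat_lit 0]]) (lv := [(nat_lit 0, [nat_lit 14, nat_lit 15]), (nat_lit 1, [nat_lit 12, nat_lit 11]), (nat_lit 8, [nat_lit 6, nat_lit 5]), (nat_lit 2, [nat_lit 2]), (nat_lit 9, [nat_lit 0])]) (Ls := qLs) rfl (by decide +kernel)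
    (Or.inr ⟨(QuotientGroup.ker_mk' _).le, [[nat_lit 1, nat_lit 1, nat_lit 0, nat_lit 1, nat_lit 0, nat_lit 0],
   [nat_lit 0, nat_lit 2, nat_lit 2],
   [nat_lit 2, nat_lit 3, nat_lit 2, nat_lit 1, nat_lit 2],
   [nat_lit 1, nat_lit 1, nat_lit 0, nat_lit 0, nat_lit 0],
   [nat_lit 0, nat_lit 1, nat_lit 1],
   [nat_lit 1, nat_lit 2, nat_lit 3, nat_lit 3, nat_lit 1, nat_lit 2],
   [nat_lit 0, nat_lit 4, nat_lit 2, nat_lit 4, nat_lit 0]], nat_lit 0, [nat_lit 5, nat_lit 4, nat_lit 3, nat_lit 2, nat_lit 1, nat_lit 3, nat_lit 3, nat_lit 0], by decide +kernel⟩)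
  exact ⟨S, h⟩

/-- six polarities -/
def Ys : List ℕ := [nat_lit 0x38f0dfbb6ecd7ab4e8cf9b2e4c78b0e0bf7aedcb76acd8af5aad4a74a8d09f3a6cc972a4c88f1a2c4870a0c07ef9ebc76e9cb86ed9ab466c98b05eb96ac56a94a84e992a446890a03e78e9c3668c982e58a9426488901e3868c16284880e182840608080, nat_lit 0x38f0dfbb6ecd7ab4e8cf9b2e4c78b0e0bf7aedcb76acd8af5aad4a74a8d09f3a6cc972a4c88f1a2c4870a0c07ef9ebc76e9cb86ed9ab466c98b05eb96ac56a94a84e992a446890a03e78e9c3668c982e58a9426488901e3868c16284880e182840608080, nat_lit 0x1c376cd5a3304c4ea0387cd9e0a64a16304ca970c457ad56c172c06a53234e91425088458c1a387900e2400a44a891a6404471e1bf76dd8ef556b356c54aefa94d9f4664ea0fe568cd934e7caf315fb982ee1bcf6d448b1a3c89302139876f1cba7add41, nat_lit 0x1c1d28bd30b1229835487c7132249415683d71b326902d18dcb234288c0d389db2b52a8825585cf3362c8407080c30504000f1ad3745f890a1e9dd76c47992a5e19db6467a94a9d9cd1784fb96add18d5706fc98b1c9bd96857d9ab5c180f5e3f7cedcba, nat_lit 0x19b46ad9bb80ec4f1b3e7101d0864b952660b14064562e60ad6af0ca52a8489d1a60a8480f1c3460b04240323449522140446cdbbb7f0e303557a962ad9acf69509d328cf9af2565cfa7266d0ff15ec37705cbefad49911e34588ee139d74e5e3b70dd41,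 nat_lit 0x16a46c188901828e193a7c09e4c8142e343ca806ad0938129cb2c541028d60dca32528458246209b30eacbb1440d7984a6c7589dbedda893204f7b838d4854e5e1ad8ddf08efe562cd933e9757f43c8356ecd8b676ecbce686b93aabc687ba8d27d232dc, nat_lit 0x1c376cd5a3364c582f5cb562b54a54274c95223448501f3c74e1b3464c172c54a13244480f1c3460b14244070c142030404071e1bf76dd9af569d19f365c98f161c17ef5db96ed59b15eb55a94e951a13e74d992e549911e345890e14180fdf3d78edd39, nat_lit 0x16b058bd5ae34a4ea0387cd9e6464690183c58e2425ab868dd9b654c52a8489d1a61484a98285c99644444040e0c3020a04058ad52cd7ab8e970ddb38efdb4f5509d328cf9b0e568cd934e7cbaf1488d124c78b6e160bd730dfbb2ed417ef5dc07cf1d39]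

theorem l37 : ∃ N : Subgroup (clW gen A6), N.Normal ∧ N.index = 2 ∧
    Nonempty (N ≃* Matrix.ProjectiveSpecialLinearGroup (Fin 3) (ZMod 7)) := by
  have : Fact (Nat.Prime 7) := ⟨by norm_num⟩
  obtain ⟨S, M⟩ := model (ZMod 7) (ZMod.card 7)
  have hY : allL (permOk 7 114) Ys = true := by decide +kernel
  have hT := tb_spG (by decide) (by decide) hY
  obtain ⟨ψ, h⟩ := exists_hom_pair (cardH (hI.pair (inv_tb hT (by decide) (by decide +kernel)))
    ((relsH_of hI hR).pair (rels_tb hT (by decide +kernel)))) card_H.ge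
  exact index_two_of_tb hT ψ h M (by decide) (by rw [card_H]) (us := [[6, 2, 5, 4, 5, 4], [4, 7, 7, 5, 6, 2, 7, 3]]) (v := [2]) (by decide +kernel)

end H13.ON
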