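import Cfsg.Agent.H13.ON
import Cfsg.Agent.H13.M11
import Cfsg.Agent.H15.J1
import Cfsg.Prelude.Def_Sporadic

/-! Subgroups `J1` and `M11` of the O'Nan group. -/

set_option maxRecDepth 100000

namespace H13.ON
open Cfsg

/-- generators of `J1` and their inverses -/
def wJ : List (List ℕ) := [[5, 6, 7, 6, 5, 4, 5, 6, 3, 4, 5, 4, 0, 3, 0, 7, 5, 6, 3, 4, 5, 4, 2, 3, 7, 6, 5, 4, 5, 6, 7, 5, 6, 5], [5, 6, 5, 7, 6, 5, 4, 5, 6, 7, 3, 2, 4, 5, 4, 3, 6, 5, 7, 1, 3, 1, 4, 5, 4, 3, 6, 5, 4, 5, 6, 7, 6, 5], [1, 6, 5, 4, 5, 0, 6, 3, 1, 4, 5, 4, 3, 0, 6, 3, 4, 5, 3, 4, 5, 6, 3, 4, 5, 4, 2, 3, 6, 5, 4, 5, 0], [1, 5, 4, 5, 6, 3, 2, 4, 5, 4, 3, 6, 5, 4, 3, 5, 4, 3, 6, 1, 3, 4, 5, 4, 0, 3, 6, 1, 5, 4, 5, 6, 0], [5, 4, 0, 5, 3, 0, 6, 7, 4, 5, 6, 3, 0, 5, 4, 5, 3, 4, 5, 6, 7, 3, 4, 5, 6, 3,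 4, 5, 3, 4, 2, 3, 4, 5, 6, 7, 4, 5, 3, 1], [0, 3, 5, 4, 7, 6, 5, 4, 3, 2, 4, 3, 5, 4, 3, 6, 5, 4, 3, 7, 6, 5, 4, 3, 5, 4, 5, 1, 3, 6, 5, 4, 7, 6, 1, 3, 5, 1, 4, 5], [5, 4, 5, 0, 6, 0, 5, 4, 0, 3, 0, 2, 3, 4, 5, 4, 3, 5, 4, 5, 6, 5, 4, 5, 4, 2, 1, 4], [4, 0, 2, 4, 5, 4, 5, 6, 5, 4, 5, 3, 4, 5, 4, 3, 2, 1, 3, 1, 4, 5, 1, 6, 1, 5, 4, 5], [5, 6, 3, 4, 1, 5, 6, 4, 3, 0, 6, 5, 4, 5, 3, 4, 5, 6, 7, 4, 5, 3, 4, 5, 6, 3, 4, 5, 4, 3, 6, 0], [1, 6, 3, 4, 5, 4, 3, 6, 5, 4, 3, 5, 4, 7, 6, 5, 4, 3, 5, 4, 5, 6, 1, 3, 4, 6, 5, 0, 4, 3, 6, 5]]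

/-- generators of `M11` -/
def wM : List (List ℕ) := [[5, 6, 7, 4, 5, 6, 3, 1, 4, 5, 6, 4, 3, 0, 5, 2, 3, 4, 5, 6, 7, 6, 5, 2, 3, 4, 5, 6, 3, 4, 5, 4, 3, 6, 4, 5, 4, 0, 6], [4, 5, 6, 4, 1, 5, 3, 4, 5, 6, 3, 4, 3, 0, 4, 5, 4, 5, 6, 3, 4, 5, 3, 4, 5, 6, 3, 4, 5, 4, 2, 3, 4, 5, 6, 0, 6], [4, 1, 3, 4, 5, 6, 7, 6, 5, 4, 5, 6, 2, 3, 0, 5, 3, 4, 5, 6, 7, 3, 4, 5, 6, 3, 4, 5, 3, 4, 2, 3, 4, 5, 4, 5], [2, 3, 4, 5, 0, 6, 0, 5, 4, 5, 6, 2, 3, 0, 6, 7, 5, 6, 3, 4, 5, 3, 4, 2, 3, 7, 5, 6, 4, 5, 4, 5, 6, 2, 1, 4], [3, 1, 6, 5, 4, 5, 6, 5, 0, 3, 4, 0, 3, 0, 6, 5, 2, 3, 4, 5, 6, 2, 3, 4, 5, 3, 4, 5, 6, 3, 4, 5, 4, 3, 6, 2, 1, 5]]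

theorem sub_M11 : ∃ K : Subgroup Spor.ON, IsM11 K := by
  have h : Rels (genW gen wM) M11.rels := (evl.genW wM).rels base (by decide +kernel)
  exact M11.exists_sub (inv_of_rels (m := 5) (fun l hl => genW_of_le hl) (by decide) h (by decide +kernel)) h
    (by simpa using (evl.genW wM).ne_one (u := [0]) (i := 0) (by decide) (by decide +kernel))

theorem sub_J1 : ∃ K : Subgroup Spor.ON, IsJ1 K := by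
  have e : H15.sg (fun i => genW gen wJ (2 * i)) = genW gen wJ := funext fun l => by
    obtain ⟨i, rfl | rfl⟩ := Nat.even_or_odd' l
    · exact H15.sg_even _ _
    rw [H15.sg_odd]
    rcases Nat.lt_or_ge i 5 with c | c
    · rw [genW_eq, genW_eq, ← evalW_invW hI, allLt_iff.1 (by decide +kernel :
        allLt (fun i => beqW (invW 3 (nthW wJ (2 * i))) (nthW wJ (2 * i + 1))) 5 = true) i c |> eq_of_beqW]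
    · rw [genW_of_le (by change 10 ≤ _; omega), genW_of_le (by change 10 ≤ _; omega), inv_one]
  have h : Rels (genW gen wJ) (H15.J1.R4.map fun r => powW r.1 r.2) := (evl.genW wJ).rels base (by decide +kernel)
  obtain ⟨ψ, hψ⟩ := H15.J1.U4 H15.J1.V H15.J1.h2 Spor.ON (fun i => genW gen wJ (2 * i)) fun r hr => by
    rw [e, ← evalW_powW]; exact h _ (List.mem_map_of_mem hr)
  have := H15.J1.simple_mdl.2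
  have f := MonoidHom.ofInjective (ψ.ker_eq_bot_iff.1 (ψ.normal_ker.eq_bot_or_eq_top.resolve_right fun c =>
    (evl.genW wJ).ne_one (u := [0]) (i := 0) (by decide) (by decide +kernel) (by
      simpa using (hψ 0 (by decide)).symm.trans (c.ge (Subgroup.mem_top _)))))
  exact ⟨ψ.range, f.symm.isSimpleGroup, (Nat.card_congr f.toEquiv).symm.trans (H15.J1.card4 _ _)⟩

end H13.ON
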