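import Cfsg.Agent.L.Jf0
import Cfsg.Agent.H04.S7D

set_option autoImplicit false
open Cfsg Subgroup

namespace H13.S5N

abbrev SL := Matrix.SpecialLinearGroup (Fin 3) (ZMod 2)

def kk : SL := ⟨!![1,0,1;0,1,0;0,0,1], by decide⟩
def u (a b c : ZMod 2) : SL := ⟨!![1,a,c;0,1,b;0,0,1], by revert a b c; decide⟩
theorem kk2 : kk * kk = 1 ∧ kk ≠ 1 := by decide
theorem uc : ∀ a b c, u a b c * kk = kk * u a b c := by decide
theorem ui : Function.Injective (fun p : ZMod 2 × ZMod 2 × ZMod 2 => u p.1 p.2.1 p.2.2) := by decide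

theorem nc {X : Type*} [Group X] [Finite X] (z δ : X) (oz : orderOf z = 2) (δ3 : orderOf δ = 3)
    (c : δ ∈ centralizer ({z} : Set X)) (inv : ∀ w : X, orderOf w = 2 → Nat.card (centralizer ({w} : Set X)) ∣ 16 ∨ IsConj z w)
    (E : Subgroup X) [hn : E.Normal] (hE : IsElementaryAbelian 2 E) (c8 : Nat.card E = 8) (e : X ⧸ E ≃* SL) :
    ∀ K : Subgroup X, ¬ E.IsComplement' K := by
  intro K hK
  have ab : ∀ a ∈ E, ∀ b ∈ E, a * b = b * a := fun a i b j => congrArg Subtype.val (hE.1.1.1 (⟨a, i⟩ : E) ⟨b, j⟩)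
  have e2 : ∀ a ∈ E, a * a = 1 := fun a i => by rw [← pow_two]; exact hE.2 a i
  let f : X →* SL := e.toMonoidHom.comp (QuotientGroup.mk' E)
  have fk : ∀ x, f x = 1 ↔ x ∈ E := fun x => by simp [f]
  have zz : z * z = 1 := by rw [← pow_two, ← oz, pow_orderOf_eq_one]
  have dd : δ * δ * δ = 1 := by rw [← pow_three', ← δ3, pow_orderOf_eq_one]
  have cm : Commute z δ := (mem_centralizer_singleton_iff.1 c).symm
  have zE : z ∈ E := by
    have h3 : (z * δ) * (z * δ) * (z * δ) = z := by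
      rw [← pow_three', cm.mul_pow, pow_three', pow_three', zz, dd]; simp
    have h2 : (z * δ) * (z * δ) = δ * δ := by rw [← pow_two, cm.mul_pow, pow_two, pow_two, zz]; simp
    rcases H04.S7D.l3 (f (z * δ)).1 (by
      rw [← Matrix.SpecialLinearGroup.coe_mul, ← Matrix.SpecialLinearGroup.coe_mul, ← Matrix.SpecialLinearGroup.coe_mul,
        ← map_mul, ← map_mul, ← map_mul, h3, zz, map_one]; rfl) with h | h
    · have : δ * δ ∈ E := (fk _).1 (by rw [← h2, map_mul]; exact Subtype.ext h)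
      have q := e2 _ this
      have : δ = 1 := by rw [← mul_assoc, dd, one_mul] at q; exact q
      rw [this, orderOf_one] at δ3; omega
    · exact (fk _).1 (by rw [← h3, map_mul, map_mul]; exact Subtype.ext h)
  have sur : ∀ s : SL, ∃ k ∈ K, f k = s := fun s => by
    obtain ⟨x, hx⟩ := QuotientGroup.mk'_surjective E (e.symm s)
    obtain ⟨⟨a, k⟩, h⟩ := hK.2 x
    refine ⟨k, k.2, ?_⟩
    have : f x = s := by simp only [f, MonoidHom.comp_apply, hx]; simp
    rw [← this, ← h]; simp [(fk a).2 a.2]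
  have inj : ∀ a ∈ K, ∀ b ∈ K, f a = f b → a = b := fun a i b j h => by
    have : a⁻¹ * b ∈ E ⊓ K := ⟨(fk _).1 (by simp [h]), K.mul_mem (K.inv_mem i) j⟩
    rw [hK.disjoint.eq_bot, mem_bot, inv_mul_eq_one] at this; exact this
  choose g gK gf using sur
  have k2 : g kk * g kk = 1 := inj _ (K.mul_mem (gK _) (gK _)) _ K.one_mem (by rw [map_mul, gf, kk2.1, map_one])
  have k1 : g kk ∉ E := fun h => kk2.2 (by rw [← gf kk]; exact (fk _).2 h)
  have : Fact (Nat.Prime 2) := ⟨by norm_num⟩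
  have ok : orderOf (g kk) = 2 := orderOf_eq_prime (by rw [pow_two, k2]) (fun h => k1 (h ▸ E.one_mem))
  rcases inv _ ok with h | h
  swap
  · obtain ⟨y, hy⟩ := isConj_iff.1 h
    exact k1 (hy ▸ hn.conj_mem z zE y)
  generalize hk : g kk = k at *
  have ki : k⁻¹ = k := inv_eq_of_mul_eq_one_right k2
  let C := centralizer ({k} : Set X)
  let φ : E →* X := MonoidHom.mk' (fun a => a * (k * a * k⁻¹)) (fun a b => by
    have := ab _ b.2 _ (hn.conj_mem _ a.2 k)
    push_cast
    calc (a : X) * b * (k * (a * b) * k⁻¹) = a * (b * (k * a * k⁻¹)) * (k * b * k⁻¹) := by group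
      _ = _ := by rw [this]; group)
  have r1 : φ.range ≤ E ⊓ C := by
    rintro _ ⟨a, rfl⟩
    refine ⟨E.mul_mem a.2 (hn.conj_mem _ a.2 k), mem_centralizer_singleton_iff.2 ?_⟩
    have := ab _ a.2 _ (hn.conj_mem _ a.2 k)
    change (a : X) * (k * a * k⁻¹) * k = k * (a * (k * a * k⁻¹))
    conv_rhs => rw [this, ki, ← mul_assoc, ← mul_assoc, ← mul_assoc, k2]
    group
  have r2 : φ.ker.map E.subtype ≤ E ⊓ C := by
    rintro _ ⟨a, h, rfl⟩
    refine ⟨a.2, mem_centralizer_singleton_iff.2 ?_⟩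
    have h' : (a : X) * (k * a * k⁻¹) = a * a := by rw [e2 a a.2]; exact h
    have := mul_left_cancel h'
    change (a : X) * k = k * a
    rw [mul_inv_eq_iff_eq_mul] at this; exact this.symm
  have n1 := card_le_of_le r1
  have n2 := card_le_of_le r2
  rw [card_map_of_injective E.subtype_injective] at n2
  have n3 := φ.ker.card_mul_index
  rw [index_ker, c8] at n3
  have n4 : 3 ≤ Nat.card ↥(E ⊓ C) := by
    by_contra hh
    have : Nat.card φ.ker * Nat.card φ.range ≤ 2 * 2 := Nat.mul_le_mul (by omega) (by omega)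
    omega
  let ψ : ↥(E ⊓ C) × (ZMod 2 × ZMod 2 × ZMod 2) → C := fun p => ⟨p.1 * g (u p.2.1 p.2.2.1 p.2.2.2), C.mul_mem p.1.2.2
    (mem_centralizer_singleton_iff.2 (by
      rw [← hk]
      exact inj _ (K.mul_mem (gK _) (gK _)) _ (K.mul_mem (gK _) (gK _)) (by simp only [map_mul, gf, uc])))⟩
  have ψi : Function.Injective ψ := by
    rintro ⟨a, p⟩ ⟨b, q⟩ hh
    have h1 := congrArg Subtype.val hh
    have h2 := congrArg f h1
    simp only [ψ, map_mul, gf, (fk _).2 a.2.1, (fk _).2 b.2.1, one_mul] at h1 h2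
    obtain rfl : p = q := ui h2
    exact Prod.ext (Subtype.ext (mul_right_cancel h1)) rfl
  have n5 := Nat.card_le_card_of_injective ψ ψi
  have n6 := Nat.le_of_dvd (by norm_num) h
  simp only [Nat.card_prod, Nat.card_zmod] at n5
  change Nat.card C ≤ 16 at n6
  omega

end H13.S5N
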