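import Cfsg.Agent.L.Js0

/-! Part C of S5573: a pure four-group centralised by an element of order seven. -/

set_option autoImplicit false
open Cfsg BG Subgroup H01.XS L.Js

namespace H13.S7C
universe u

theorem c : CStmt.{u} := by
  intro G _ _ z δ σ t V K m21 ha pu hV cV KN ⟨e⟩ tV t1 tz c276 δ3 δz cj3 σz σ7
  have : Fact (Nat.Prime 7) := ⟨by decide⟩
  have : Fact (Nat.Prime 2) := ⟨by decide⟩
  have cm : ∀ {a x : G}, x ∈ C_[a] ↔ x * a = a * x := mem_centralizer_singleton_iff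
  obtain ⟨x0, y0, ox, oy, xy⟩ := m21
  obtain ⟨x, s, ox, os, xs, sN⟩ : ∃ x s : G, orderOf x = 3 ∧ orderOf s = 7 ∧ x * s = s * x ∧ s ∈ N_(V) :=
    ⟨e.symm x0, e.symm y0, by rw [orderOf_coe, MulEquiv.orderOf_eq, ox], by rw [orderOf_coe, MulEquiv.orderOf_eq, oy],
      by rw [← Subgroup.coe_mul, ← map_mul, xy, map_mul, Subgroup.coe_mul], KN (e.symm y0).2⟩
  have oc : ∀ g a : G, orderOf (g * a * g⁻¹) = orderOf a := fun g a => (MulAut.conj g).orderOf_eq a
  obtain ⟨g, hg⟩ := isConj_iff.1 (cj3 x δ ox δ3)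
  have s1 : g * s * g⁻¹ ∈ C_[z] := δz (cm.2 (by
    rw [← hg]; calc _ = g * (s * x) * g⁻¹ := by group
      _ = _ := by rw [← xs]; group))
  have sy : ∀ a : C_[z], orderOf (a : G) = 7 → ∃ P : Sylow 7 C_[z], (P : Subgroup C_[z]) = zpowers a := fun a h => by
    have ca : Nat.card (zpowers a) = 7 := by rw [Nat.card_zpowers, ← orderOf_coe, h]
    refine ⟨(IsPGroup.of_card (n := 1) ca).toSylow fun d => ha.1 ?_, rfl⟩
    rw [← (zpowers a).card_mul_index, ca]; exact Nat.mul_dvd_mul_left 7 d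
  obtain ⟨P, hP⟩ := sy ⟨σ, σz⟩ σ7
  obtain ⟨P', hP'⟩ := sy ⟨_, s1⟩ ((oc g s).trans os)
  obtain ⟨h, hh⟩ := MulAction.exists_smul_eq C_[z] P' P
  obtain ⟨k, i, hk⟩ : ∃ (k : G) (i : ℤ), σ = k * s ^ i * k⁻¹ := by
    obtain ⟨y, a, b⟩ : (⟨σ, σz⟩ : C_[z]) ∈ ((h • P' : Sylow 7 C_[z]) : Subgroup C_[z]) := hh ▸ hP ▸ mem_zpowers _
    obtain ⟨i, rfl⟩ := hP'.le a
    refine ⟨h * g, i, ?_⟩
    have := congrArg Subtype.val b
    simp only [MulDistribMulAction.toMonoidEnd_apply, MulDistribMulAction.toMonoidHom_apply, MulAut.smul_def, MulAut.conj_apply,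
      Subgroup.coe_mul, SubgroupClass.coe_zpow, InvMemClass.coe_inv, conj_zpow] at this
    rw [← this]; group
  have V2 : ∀ v ∈ V, v * v = 1 := fun v hv => (pow_two v).symm.trans (hV.2 v hv)
  have Vc : ∀ v ∈ V, ∀ w ∈ V, v * w = w * v := fun v hv w hw => by
    have := V2 _ (V.mul_mem hv hw)
    rw [← inv_eq_of_mul_eq_one_right this, mul_inv_rev, inv_eq_of_mul_eq_one_right (V2 v hv), inv_eq_of_mul_eq_one_right (V2 w hw)]
  set D := {v : G | ∃ n ∈ N_(V), n * t * n⁻¹ = v}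
  let f : Function.End D := fun v => ⟨s * v * s⁻¹, let ⟨n, a, b⟩ := v.2; ⟨s * n, mul_mem sN a, by rw [← b]; group⟩⟩
  have fp : ∀ (n : ℕ) (v : D), ((f ^ n) v : G) = s ^ n * v * (s ^ n)⁻¹ := fun n => by
    induction n with
    | zero => intro v; simp [Function.End.one_def]
    | succ n ih => 
      intro v
      rw [pow_succ']
      show s * ((f ^ n) v : G) * s⁻¹ = _
      rw [ih]; group
  classical
  have := Fintype.ofFinite D
  have md := Equiv.Perm.card_fixedPoints_modEq (f := f) (p := 7) (n := 1) (funext fun v => Subtype.ext (by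
    rw [fp, pow_one, ← os, pow_orderOf_eq_one]; simp [Function.End.one_def]))
  rw [← Nat.card_eq_fintype_card, ← Nat.card_eq_fintype_card, Nat.card_coe_set_eq, c276, Nat.card_coe_set_eq] at md
  set F : Set G := Subtype.val '' f.fixedPoints
  have c3 : 3 ≤ F.ncard := by
    rw [Set.ncard_image_of_injective _ Subtype.val_injective]; unfold Nat.ModEq at md; omega
  have hF : ∀ v ∈ F, v ∈ V ⊓ C_[s] ∧ v ≠ 1 ∧ ¬ IsConj z v := by
    rintro _ ⟨⟨_, n, a, rfl⟩, b, rfl⟩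
    refine ⟨⟨(mem_normalizer_iff.1 a t).1 tV, cm.2 (mul_inv_eq_iff_eq_mul.1 (congrArg Subtype.val b)).symm⟩,
      fun e => t1 (by simpa using e), fun e => tz (e.trans (isConj_iff.2 ⟨n, rfl⟩).symm)⟩
  have cU : ∀ S : Set G, S ⊆ (V ⊓ C_[s] : Subgroup G) → S.ncard ≤ Nat.card ↥(V ⊓ C_[s]) := fun S h =>
    Set.ncard_le_ncard h (Set.toFinite _)
  have n1 : (1 : G) ∉ F := fun h => (hF 1 h).2.1 rfl
  have pr : ∀ a ∈ V ⊓ C_[s], a ≠ 1 → ¬ IsConj z a := fun a aU a1 h => by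
    obtain ⟨m, rfl⟩ := isConj_iff.1 h
    have sz : m⁻¹ * s * m⁻¹⁻¹ ∈ C_[z] := cm.2 (by
      have := cm.1 aU.2
      calc _ = m⁻¹ * (s * (m * z * m⁻¹)) * m := by group
        _ = _ := by rw [← this]; group)
    have d := (ha.2 _ sz ((oc _ s).trans os)).1
    have le : cj m⁻¹ (V ⊓ C_[s]) ≤ C_[z] ⊓ C_[m⁻¹ * s * m⁻¹⁻¹] := by
      rintro _ ⟨w, hw, rfl⟩
      refine ⟨cm.2 ?_, cm.2 ?_⟩
      · calc _ = m⁻¹ * (w * (m * z * m⁻¹)) * m := by simp [mul_assoc]
          _ = _ := by rw [Vc w hw.1 _ aU.1]; simp [mul_assoc]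
      · calc _ = m⁻¹ * (w * s) * m := by simp [mul_assoc]
          _ = _ := by rw [cm.1 hw.2]; simp [mul_assoc]
    have d2 := (card_dvd_of_le le).trans d
    rw [cj, card_map_of_injective (MulAut.conj m⁻¹).injective] at d2
    have d3 := card_dvd_of_le (inf_le_left : V ⊓ C_[s] ≤ V)
    rw [cV] at d3
    have d4 := Nat.le_of_dvd (by decide) (show _ ∣ 4 from Nat.dvd_gcd d2 d3)
    have := cU (insert (m * z * m⁻¹) (insert 1 F)) (Set.insert_subset aU (Set.insert_subset (one_mem _) fun v hv => (hF v hv).1))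
    rw [Set.ncard_insert_of_notMem (by rintro (e | e); exacts [a1 e, (hF _ e).2.2 h]), Set.ncard_insert_of_notMem n1] at this
    omega
  have c4 : Nat.card ↥(V ⊓ C_[s]) = 4 := by
    have a := pu V hV cV _ inf_le_left pr
    have := cU (insert 1 F) (Set.insert_subset (one_mem _) fun v hv => (hF v hv).1)
    rw [Set.ncard_insert_of_notMem n1] at this
    omega
  refine ⟨cj k (V ⊓ C_[s]), ?_, by rw [cj, card_map_of_injective (MulAut.conj k).injective, c4], ?_⟩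
  · rintro _ ⟨w, hw, rfl⟩
    refine cm.2 ?_
    rw [hk]
    calc _ = k * (w * s ^ i) * k⁻¹ := by simp [mul_assoc]
      _ = _ := by rw [((show Commute w s from cm.1 hw.2).zpow_right i).eq]; simp [mul_assoc]
  · rintro _ ⟨w, hw, rfl⟩ n
    have w1 : w ≠ 1 := fun e => n (by simp [e])
    exact ⟨(oc k w).trans (orderOf_eq_prime (by rw [pow_two, V2 w hw.1]) w1),
      fun e => pr w hw w1 (e.trans (isConj_iff.2 ⟨k, rfl⟩).symm)⟩

end H13.S7C
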