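import Cfsg.Agent.H13.Sm
import Cfsg.Agent.H13.WE6
import Cfsg.Agent.H27.SuzM

/-! The Suzuki group on 1782 points as a table model: `H13.Suz.sm`, `hom2160`. -/

set_option maxRecDepth 100000
set_option Elab.async false

namespace H13.Suz

open Subgroup Cfsg

/-- the tables of the seven generators -/
noncomputable def ev : ℕ → ℕ → ℕ := evS 13 H27.Suz.Ls

/-- the base -/
def bs : List ℕ := [0, 1, 4, 12, 48, 1455, 26, 5, 2]

instance fin : Finite Spor.Suz := Nat.finite_of_card_ne_zero (card_eq ▸ by decide)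

theorem sm : Sm 1782 ev bs gen (finPts 1782).pt := ⟨(finPts 1782).inj, fun l => by
  by_cases h : l < 7
  · have := sys.rep_tabW [l]
    rw [show tabW 13 (finPts 1782).n nW [l] = nthN H27.Suz.Ls l from (by decide +kernel : ∀ l < 7, tabW 13 1782 nW [l] = nthN H27.Suz.Ls l) l h,
      evalW_cons, evalW_nil, mul_one] at this
    interval_cases l <;> exact this
  · rw [show gen l = 1 from genL_of_le (not_lt.1 h)]
    exact Rep.one.congr fun i _ => evS_of_le (Ts := H27.Suz.Ls) (not_lt.1 h) i,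
  H27.Suz.model.base.1, fun g h => H27.Suz.model.base.2 g fun b hb => by
    have q := H27.Suz.model.base.1 b hb
    have c : (finPts 1782).pt b = ⟨b, q⟩ := Fin.ext (Nat.mod_eq_of_lt q)
    exact (H27.MG.ap_tsOf sys faith g ⟨b, q⟩).trans (congrArg Fin.val (c ▸ h b hb))⟩

theorem ch4 : chG ev 1782 8 223 4 [(302, [([2, 3, 2, 1, 0, 1, 2, 3, 0, 1], 8), ([0], 2), ([3], 2), ([0, 1, 2, 3, 2, 3, 1, 0], 2), ([1, 2, 3], 2), ([3], 2)]),
 (605, [([0, 1, 2, 3, 2, 3, 1, 0], 4), ([2, 3, 2, 1, 0, 1, 2, 3, 0, 1, 2, 1, 0, 1, 0], 3), ([0, 1, 2, 0, 1, 0], 2)])] [] = 2160 := by decide +kernel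

theorem card2160 : Nat.card (clW gen [[0], [1], [2], [3]]) = 2160 :=
  le_antisymm (card1 hI hR).2 ((ch4 ▸ sm.card_ge (by decide) _).trans (card_le_of_le (tl_le fun l _ h => by
    rw [← mul_one (gen l)]
    exact evalW_mem_clW (u := [l]) (by interval_cases l <;> decide))))

theorem hom2160 {H : Type*} [Group H] (a b c d : H) (ha : a * a = 1) (hb : b * b = 1) (hc : c * c = 1) (hd : d * d = 1)
    (hab : (a * b) ^ 5 = 1) (hbc : (b * c) ^ 3 = 1) (hcd : (c * d) ^ 8 = 1) (hac : a * c = c * a) (had : a * d = d * a)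
    (hbd : b * d = d * b) (h : a = (c * d) ^ 4) : ∃ f : closure {gen 0, gen 1, gen 2, gen 3} →* H,
      (∀ p, f ⟨gen 0, p⟩ = a) ∧ (∀ p, f ⟨gen 1, p⟩ = b) ∧ (∀ p, f ⟨gen 2, p⟩ = c) ∧ ∀ p, f ⟨gen 3, p⟩ = d := by
  have k : ∀ {x y : H}, x * x = 1 → y * y = 1 → x * y = y * x → x * (y * (x * y)) = 1 := fun {x y} p q r => by
    rw [← mul_assoc y, ← r, mul_assoc, q, mul_one, p]
  have R : Rels ([a, b, c, d].getD · 1) WE6.qrels := fun r p => by
    have z : a * (d * (c * (d * (c * (d * (c * (d * c))))))) = 1 := by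
      simp [h, pow_succ, mul_assoc, ← mul_assoc c c, ← mul_assoc d d, hc, hd]
    simp only [pow_succ, pow_zero, one_mul, mul_assoc] at hab hbc hcd
    simp only [WE6.qrels, List.mem_cons, List.not_mem_nil, or_false] at p
    rcases p with rfl | rfl | rfl | rfl | rfl | rfl | rfl | rfl | rfl | rfl | rfl <;> simp only [evalW_cons, evalW_nil, mul_one]
    exacts [ha, hab, k ha hc hac, k ha hd had, hb, hbc, k hb hd hbd, hc, hcd, hd, z]
  obtain ⟨ψ, q⟩ := exists_hom_pair (WE6.cardQ (hI.pair (inv_of_rels (m := 4) (fun _ h => List.getD_eq_default _ _ h) (by decide) R (by decide +kernel)))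
    (Rels.pair (fun r hr => hR r ((by decide +kernel : ∀ r ∈ WE6.qrels, r ∈ rels) r hr)) R)) card2160.ge
  have e : closure {gen 0, gen 1, gen 2, gen 3} = clW gen [[0], [1], [2], [3]] := congrArg _ (by ext; simp [eq_comm])
  have t := fun l p => (q _ (evalW_mem_clW (u := [l]) p)).2
  simp only [evalW_cons, evalW_nil, mul_one] at t
  exact ⟨ψ.comp (MulEquiv.subgroupCongr e).toMonoidHom, fun _ => t 0 (by decide), fun _ => t 1 (by decide), fun _ => t 2 (by decide),
    fun _ => t 3 (by decide)⟩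

end H13.Suz
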