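import Cfsg.Agent.H13.Bs

/-!
Computation kit (namespace H13): upper bounds for subgroups from a complete chain and invariant sets.
* `cutM`, `chU`, `InvM`, `Sm.card_le`, `Sm.inv_orb`, `Sm.inv_fix`, `Sm.inv_cen`, `Sm.map`.
-/

namespace H13

open Subgroup MulAction

variable {G α : Type*} [Group G] [MulAction G α] {m : ℕ} {ev : ℕ → ℕ → ℕ} {bs : List ℕ} {gen : ℕ → G} {pt : ℕ → α}

/-- cut the flags `X` by those listed sets whose points lie in `B` -/
noncomputable def cutM (Ms : List (List ℕ × ℕ)) (B : List ℕ) (b X : ℕ) : ℕ :=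
  List.rec X (fun q _ ih => force ih fun Y => Bool.rec Y (Bool.rec (Nat.xor Y (Nat.land Y q.2)) (Nat.land Y q.2) (q.2.testBit b))
    (allL (fun p => anyL (Nat.beq p) B) q.1)) Ms

theorem cutM_mem {Ms : List (List ℕ × ℕ)} {B : List ℕ} {b X j : ℕ} (hX : X.testBit j = true)
    (h : ∀ q ∈ Ms, (∀ p ∈ q.1, p ∈ B) → q.2.testBit b = q.2.testBit j) : (cutM Ms B b X).testBit j = true := by
  induction Ms with
  | nil => exact hX
  | cons q Ms ih =>
    have a : (cutM Ms B b X).testBit j = true := ih fun r hr => h r (.tail _ hr)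
    change Nat.testBit (Bool.rec (motive := fun _ => ℕ) (cutM Ms B b X) (Bool.rec (motive := fun _ => ℕ) (cutM Ms B b X ^^^ (cutM Ms B b X &&& _))
      (cutM Ms B b X &&& _) _) _) j = true
    cases e : allL _ _
    · exact a
    have := h q (.head _) fun p hp => by simpa [anyL_iff] using allL_iff.1 e p hp
    cases f : q.2.testBit b <;> simp [← this, f, a]

/-- the product of the numbers of admissible images along a chain -/
noncomputable def chU (ev : ℕ → ℕ → ℕ) (w n : ℕ) (Ms : List (List ℕ × ℕ)) (lv : List (ℕ × List (List ℕ × ℕ))) : List ℕ → ℕ :=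
  List.rec (fun _ => nat_lit 1) (fun l _ ih B => Nat.mul (popc w n (cutM Ms B l.1 (orbM ev l.2 l.1 (nat_lit 0)))) (ih (l.1 :: B))) lv

/-- the elements of `C` fixing the points `q.1` keep the set `q.2` -/
def InvM (C : Subgroup G) (m : ℕ) (pt : ℕ → α) (q : List ℕ × ℕ) : Prop :=
  ∀ g ∈ C, (∀ p ∈ q.1, g • pt p = pt p) → ∀ i < m, ∀ j < m, g • pt i = pt j → q.2.testBit i = true → q.2.testBit j = true

namespace Sm

variable (S : Sm m ev bs gen pt)
include S

theorem card_le' [Finite G] {w n k : ℕ} (hn : n + 1 < 2 ^ w) {H C : Subgroup G} (hH : ∀ l < k, gen l ∈ H) (hC : C ≤ H)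
    {Ms : List (List ℕ × ℕ)} (hM : ∀ q ∈ Ms, InvM C m pt q) (lv : List (ℕ × List (List ℕ × ℕ))) {B : List ℕ} (hB : ∀ b ∈ B, b < m)
    (h : Nat.card ↥(H ⊓ fixL G ⟨m, pt, S.inj⟩ B) ≤ chG ev m w n k lv B) : Nat.card ↥(C ⊓ fixL G ⟨m, pt, S.inj⟩ B) ≤ chU ev w n Ms lv B := by
  induction lv generalizing B with
  | nil => exact (card_le_of_le (inf_le_inf_right _ hC)).trans h
  | cons l lv ih =>
    change _ ≤ Bool.rec (motive := fun _ => ℕ) _ (_ * chG ev m w n k lv _) _ at h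
    change _ ≤ _ * chU ev w n Ms lv _
    cases q : band _ _ <;> rw [q] at h
    · exact absurd h (not_le.2 Nat.card_pos)
    simp only [band_eq_true, Nat.blt_eq, allL_iff] at q
    have hB' : ∀ b ∈ l.1 :: B, b < m := List.forall_mem_cons.2 ⟨q.1.1, hB⟩
    have r := S.card_ge' hn hH lv hB'
    have o := S.orbM_mem (H := H ⊓ fixL G ⟨m, pt, S.inj⟩ B) (st := l.2) (fun s hs => ⟨evalW_mem fun x hx => hH x (q.1.2 s hs x hx),
      fun b => S.evl.fix hB q.2 (List.mem_map_of_mem hs)⟩) ⟨q.1.1, mem_orbit_self _⟩ (M := 0) (by simp)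
    have z := h.trans' (Nat.succ_le_of_lt Nat.card_pos)
    rw [← ncard_orbit_mul_card _ (pt l.1), inf_assoc, ← fixL_cons (P := ⟨m, pt, S.inj⟩), popc_eq hn] at h ⊢
    rw [popc_eq hn] at z
    rw [← Set.InjOn.ncard_image (f := pt) fun i hi j hj => S.inj _ (o i hi.2).1 _ (o j hj.2).1] at h z
    have u : pt '' {i | i < w * n ∧ (orbM ev l.2 l.1 0).testBit i = true} ⊆ orbit ↥(H ⊓ fixL G ⟨m, pt, S.inj⟩ B) (pt l.1) :=
      Set.image_subset_iff.2 fun j hj => (o j hj.2).2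
    have a := Set.ncard_le_ncard u (Set.finite_range _)
    have e := Set.eq_of_subset_of_ncard_le u (Nat.le_of_mul_le_mul_right (h.trans (Nat.mul_le_mul_left _ r)) Nat.card_pos) (Set.finite_range _)
    refine Nat.mul_le_mul ?_ (ih hB' (Nat.le_of_mul_le_mul_left ((Nat.mul_le_mul_right _ a).trans h) (Nat.pos_of_mul_pos_right z)))
    refine le_trans (Set.ncard_le_ncard ?_ (((Set.finite_lt_nat (w * n)).subset fun _ h => h.1).image pt)) (Set.ncard_image_le ((Set.finite_lt_nat _).subset fun _ h => h.1))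
    rintro _ ⟨⟨g, hg⟩, rfl⟩
    obtain ⟨j, hj, f⟩ := e.ge ⟨⟨g, hC hg.1, hg.2⟩, rfl⟩
    refine ⟨j, ⟨hj.1, cutM_mem hj.2 fun t ht p => Bool.eq_iff_iff.2 ⟨hM t ht g hg.1 (fun b hb => hg.2 b (p b hb)) _ q.1.1 _ (o j hj.2).1 f.symm,
      hM t ht g⁻¹ (inv_mem hg.1) (fun b hb => inv_smul_eq_iff.2 (hg.2 b (p b hb)).symm) _ (o j hj.2).1 _ q.1.1 (inv_smul_eq_iff.2 f)⟩⟩, f⟩

theorem card_le [Finite G] {w n k : ℕ} (hn : n + 1 < 2 ^ w) {C : Subgroup G} {Ms : List (List ℕ × ℕ)} (hM : ∀ q ∈ Ms, InvM C m pt q)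
    (lv : List (ℕ × List (List ℕ × ℕ))) (h : Nat.card G ≤ chG ev m w n k lv []) : Nat.card C ≤ chU ev w n Ms lv [] := by
  simpa using S.card_le' hn (H := ⊤) (fun _ _ => trivial) le_top hM lv (B := []) (by simp) (by simpa using h)

theorem inv_cen {u : List ℕ} {F : ℕ} (h : allLt (fun i => F.testBit i == Nat.beq (evW ev u i) i) m = true) :
    InvM (centralizer {evalW gen u}) m pt ([], F) := fun g hg _ i hi j hj e => by
  simp only [allLt_iff, beq_iff_eq] at h
  rw [h i hi, h j hj, Nat.beq_eq, Nat.beq_eq, ← S.fix_iff u hi, ← S.fix_iff u hj, ← e, ← mul_smul, ← mem_centralizer_singleton_iff.1 hg, mul_smul]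
  exact congrArg _

variable [Finite G] {o : ℕ → ℕ} {n p : ℕ} (pc : IsPc gen o n) (hp : p < m)
include pc hp

theorem inv_orb {st : List (List ℕ × ℕ)} {O : ℕ} (h : band (band (Nat.beq (orbM ev st p 0) O) (allL (fun s => inB 0 n s.1) st))
    (allLt (fun c => O.testBit (evW ev (wd o n 0 c) p)) (po o n 0)) = true) : InvM (normalizer (tl gen n 0 : Set G)) m pt ([p], O) :=
  fun g hg f i _ j hj e hi => by
    simp only [band_eq_true, allLt_iff, allL_iff, Nat.beq_eq] at h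
    obtain ⟨⟨a, ha⟩, b⟩ := (S.orbM_mem (H := tl gen n 0) (fun s hs => evalW_mem_tl (h.1.2 s hs)) ⟨hp, mem_orbit_self _⟩ (M := 0) (by simp) i
      (h.1.1 ▸ hi)).2
    obtain ⟨c, hc, y, hy, q⟩ := pc.nf (k := 0) (r := n) (by omega) ((mem_normalizer_iff.1 hg a).1 ha)
    rw [zero_add, tl_self, mem_bot] at hy
    rw [hy, mul_one] at q
    rw [S.inj j hj _ (S.act (wd o n 0 c) hp).1 (by
      rw [← (S.act _ hp).2, ← q, ← e, ← b, mul_smul, mul_smul, inv_smul_eq_iff.2 (f p (.head _)).symm]; rfl)]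
    exact h.2 c hc

theorem inv_fix {u : List ℕ} {F r : ℕ} (h : band (band (band (inB 0 n u) (Nat.beq (evW ev u p) p)) (allLt (fun i => F.testBit i == Nat.beq (evW ev u i) i) m))
    (allLt (fun c => bor (!Nat.beq (evW ev (wd o n 0 c) p) p) (!allLt (fun k => !eqB ev bs [(wd o n 0 c, powW u k)]) r)) (po o n 0)) = true) :
    InvM (normalizer (tl gen n 0 : Set G)) m pt ([p], F) := fun g hg f i hi j hj e => by
  simp only [band_eq_true, allLt_iff, beq_iff_eq, Nat.beq_eq, bor_eq_true, Bool.not_eq_true', ← Bool.not_eq_true] at h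
  obtain ⟨c, hc, y, hy, q⟩ := pc.nf (k := 0) (r := n) (by omega) ((mem_normalizer_iff.1 (inv_mem hg) _).1 (evalW_mem_tl h.1.1.1))
  rw [zero_add, tl_self, mem_bot] at hy
  rw [hy, mul_one, inv_inv] at q
  obtain ⟨k, -, t⟩ : ∃ k < r, eqB ev bs [(wd o n 0 c, powW u k)] = true := by
    simpa using (h.2 c hc).resolve_left (not_not.2 ((S.fix_iff _ hp).1 (by
      rw [← q, mul_smul, mul_smul, f p (.head _), (S.fix_iff u hp).2 h.1.1.2, inv_smul_eq_iff, f p (.head _)])))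
  rw [h.1.2 i hi, h.1.2 j hj, Nat.beq_eq, Nat.beq_eq, ← S.fix_iff u hi, ← S.fix_iff u hj, ← e, ← mul_smul, eq_comm (b := g • _), ← inv_smul_eq_iff,
    ← mul_smul, mul_inv_rev]
  rw [S.eq1 t, evalW_powW] at q
  intro z
  have : (g⁻¹ * evalW gen u * g)⁻¹ ∈ stabilizer G (pt i) := inv_mem (q ▸ pow_mem z k)
  simpa [mul_assoc] using this

omit pc hp [Finite G] in
theorem map {H : Type*} [Group H] (e : G ≃* H) :
    letI := MulAction.compHom α e.symm.toMonoidHom; Sm m ev bs (fun l => e (gen l)) pt :=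
  letI := MulAction.compHom α e.symm.toMonoidHom
  ⟨S.inj, fun l i hi => ⟨(S.evl l i hi).1, (congrArg (· • pt i) (e.symm_apply_apply _)).trans (S.evl l i hi).2⟩, S.base.1,
    fun _ h => e.symm.map_eq_one_iff.1 (S.base.2 _ h)⟩

end Sm

end H13
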