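import Cfsg.Agent.H13.Top

/-! Monomial triple covers of permutation models generated by letters inverting the centre: `cov`, `vOk`, `evalW_cov`. -/

namespace H13

/-- the value modulo three given by two planes -/
def vl (p q i : ℕ) : ZMod 3 := (bif p.testBit i then 1 else 0) - (bif q.testBit i then 1 else 0)

/-- minus the sum of two pairs of planes, passed to `k` -/
noncomputable def nad (a b c d : ℕ) (k : ℕ → ℕ → Bool) : Bool :=
  force (Nat.land a b) fun u => force (Nat.land c d) fun v => force (Nat.xor a u) fun a => force (Nat.xor b u) fun b =>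
    force (Nat.xor c v) fun c => force (Nat.xor d v) fun d => force (Nat.xor (Nat.lor a d) (Nat.lor b c)) fun t =>
      force (Nat.xor (Nat.lor a c) t) fun p => force (Nat.xor (Nat.lor b d) t) fun q => k p q

theorem nad_spec (a b c d : ℕ) : ∃ p q, (∀ k, nad a b c d k = k p q) ∧ ∀ i, vl p q i = -(vl a b i + vl c d i) :=
  ⟨_, _, fun _ => rfl, fun i => by
    simp only [vl, Nat.xor_eq, Nat.lor_eq, Nat.land_eq, Nat.testBit_xor, Nat.testBit_or, Nat.testBit_and]
    cases a.testBit i <;> cases b.testBit i <;> cases c.testBit i <;> cases d.testBit i <;> decide⟩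

/-- the voltage of a word -/
noncomputable def vOk (nets : List Net) (E F : List ℕ) (s t : ℕ) (u : List ℕ) : ℕ → ℕ → Bool :=
  List.rec (fun p q => band (Nat.beq p s) (Nat.beq q t))
    (fun l _ ih p q => nad ((nth nets l).ap p) ((nth nets l).ap q) (nthN E l) (nthN F l) ih) u

variable {n : ℕ} [NeZero n] {pm : ℕ → Equiv.Perm (Fin n)} {nets : List Net} {E F : List ℕ}

/-- the letters of the cover -/
noncomputable def cov (pm : ℕ → Equiv.Perm (Fin n)) (E F : List ℕ) (l : ℕ) : Equiv.Perm (Fin n × ZMod 3) :=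
  Equiv.prodShear (pm l) fun i => Equiv.subLeft (vl (nthN E l) (nthN F l) i)

/-- the deck transformation -/
def deck (n : ℕ) : Equiv.Perm (Fin n × ZMod 3) := Equiv.prodShear (Equiv.refl _) fun _ => Equiv.addRight 1

omit [NeZero n] in
theorem cov_deck (l : ℕ) : cov pm E F l * deck n * (cov pm E F l)⁻¹ = (deck n)⁻¹ := by
  rw [mul_inv_eq_iff_eq_mul, eq_inv_mul_iff_mul_eq]
  ext x <;> simp [cov, deck, sub_add_eq_sub_sub]

theorem vOk_spec (S : Sys1 (finPts n) pm nets) {s t : ℕ} {u : List ℕ} {p q : ℕ} (h : vOk nets E F s t u p q = true)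
    {g : Equiv.Perm (Fin n × ZMod 3)} {π : Equiv.Perm (Fin n)} {σ : ZMod 3}
    (hg : ∀ i c, g (i, c) = (π i, σ * (c + vl p q i))) (i : Fin n) (c : ZMod 3) :
    (g * evalW (cov pm E F) u) (i, c) = ((π * evalW pm u) i, σ * (-1) ^ u.length * (c + vl s t i)) := by
  induction u generalizing p q g π σ with
  | nil =>
    obtain ⟨a, b⟩ := band_eq_true.1 h
    simp [hg, Nat.eq_of_beq_eq_true a, Nat.eq_of_beq_eq_true b]
  | cons l u ih =>
    obtain ⟨p', q', a, b⟩ := nad_spec ((nth nets l).ap p) ((nth nets l).ap q) (nthN E l) (nthN F l)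
    rw [evalW_cons, evalW_cons, ← mul_assoc, ← mul_assoc, ih ((a _).symm.trans h) (π := π * pm l) (σ := -σ) fun i c => ?_]
    · simp [pow_succ]
    have e : (finPts n).ix (pm l) i = (pm l i : ℕ) := by
      have := S.rep_gen l i i.2
      have h2 : pm l (Fin.ofNat n i) = Fin.ofNat n _ := this.2
      rw [Fin.ofNat_val_eq_self] at h2
      rw [h2, Fin.val_ofNat]; exact (Nat.mod_eq_of_lt this.1).symm
    have f : vl ((nth nets l).ap p) ((nth nets l).ap q) i = vl p q (pm l i) := by simp only [vl, S.testBit_ap l _ i.2, e]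
    simp only [Equiv.Perm.mul_apply, cov, Equiv.prodShear_apply, hg, b, f, Equiv.subLeft_apply]
    congr 1; ring

theorem evalW_cov (S : Sys1 (finPts n) pm nets) {u : List ℕ} (h1 : evalW pm u = 1) (h2 : u.length % 2 = 0) :
    (vOk nets E F 0 0 u 0 0 = true → evalW (cov pm E F) u = 1) ∧
      (vOk nets E F (ones n) 0 u 0 0 = true → evalW (cov pm E F) u = deck n) := by
  have k : ∀ s, vOk nets E F s 0 u 0 0 = true → ∀ i c, evalW (cov pm E F) u (i, c) = (i, c + vl s 0 i) := fun s h i c => by
    simpa [h1, (Nat.even_iff.2 h2).neg_one_pow] using vOk_spec S h (g := 1) (π := 1) (σ := 1) (by simp [vl]) i c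
  exact ⟨fun h => Equiv.ext fun x => (k _ h x.1 x.2).trans (by simp [vl]),
    fun h => Equiv.ext fun x => (k _ h x.1 x.2).trans (by simp [vl, deck, testBit_ones])⟩

end H13
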