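import Cfsg.Agent.H13.X22D
import Cfsg.Prelude.Def_MonsterType

/-! The centraliser of a product of two commuting transpositions in Aut(Fi22): `H13.X22.main`. -/

set_option maxRecDepth 100000
set_option Elab.async false

namespace H13.X22

open Subgroup Cfsg H29
open scoped commutatorElement

variable {G : Type*} [Group G] [Finite G]

omit [Finite G] in
theorem clW_append (g : ℕ → G) (us vs : List (List ℕ)) : clW g (us ++ vs) = clW g us ⊔ clW g vs :=
  le_antisymm (clW_le fun _ h => (List.mem_append.1 h).elim (fun q => mem_sup_left (evalW_mem_clW q)) fun q => mem_sup_right (evalW_mem_clW q))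
    (sup_le (clW_le fun _ h => evalW_mem_clW (List.mem_append_left _ h)) (clW_le fun _ h => evalW_mem_clW (List.mem_append_right _ h)))

theorem card_sup_le {A B : Subgroup G} (h : B ≤ normalizer (A : Set G)) : Nat.card ↥(A ⊔ B) ≤ Nat.card B * Nat.card A := by
  rw [← Nat.card_prod]
  exact Nat.card_le_card_of_surjective (fun p : B × A => ⟨p.2 * p.1, mul_mem (mem_sup_left p.2.2) (mem_sup_right p.1.2)⟩) fun x =>
    let ⟨a, p, b, q, e⟩ := mem_sup_norm h x.2; ⟨(⟨b, q⟩, ⟨a, p⟩), Subtype.ext e⟩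

theorem inv_of_fpf {K : Subgroup G} {w : G} (h : w ∈ normalizer (K : Set G)) (h2 : w * w = 1) (hf : ∀ k ∈ K, Commute k w → k = 1) :
    ∀ k ∈ K, w * k * w⁻¹ = k⁻¹ := fun k hk =>
  congrArg Subtype.val (congrFun (MonoidHom.FixedPointFree.coe_eq_inv_of_involutive (φ := K.normalizerMonoidHom ⟨w, h⟩)
    (fun x e => Subtype.ext (hf x x.2 (mul_inv_eq_iff_eq_mul.1 (congrArg Subtype.val e)).symm)) fun x => Subtype.ext (by
      change w * (w * x * w⁻¹) * w⁻¹ = x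
      rw [← mul_assoc, ← mul_assoc, h2, one_mul, mul_assoc, ← mul_inv_rev, h2, inv_one, mul_one])) ⟨k, hk⟩)

theorem odd_bot {Q K : Subgroup G} {z a b : G} (q : IsPGroup 2 Q) (hC : centralizer {z} ≤ normalizer (Q : Set G))
    (hc : centralizer (Q : Set G) ≤ Q) (hz : z ∈ Q) (z2 : z * z = 1) (h1 : a * z * a⁻¹ ∈ Q) (h2 : a * z * a⁻¹ * z = b * z * b⁻¹)
    (h3 : a⁻¹ * z * a ∈ Q) (h4 : b⁻¹ * z * b ∈ Q) (o : Odd (Nat.card K)) (n : Q ≤ normalizer (K : Set G)) : K = ⊥ := by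
  have t : ∀ x ∈ K, ∀ i, x ^ 2 ^ i = 1 → x = 1 := fun x hx i e => orderOf_eq_one_iff.1 (Nat.eq_one_of_dvd_coprimes
    (Nat.Coprime.pow_left i (Nat.coprime_two_left.2 o)) (orderOf_dvd_of_pow_eq_one e) (K.orderOf_dvd_natCard hx))
  have u : ∀ x ∈ K, ∀ c : G, c⁻¹ * x * c ∈ Q → x = 1 := fun x hx c e => by
    obtain ⟨i, hi⟩ := q ⟨_, e⟩
    exact t x hx i (conj_eq_one_iff.1 ((conj_pow (a := c⁻¹) (b := x) (i := 2 ^ i)).symm.trans (by simpa using congrArg Subtype.val hi)))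
  have cm : ∀ {k y : G}, Commute k z → y ∈ Q → k * y * k⁻¹ * y⁻¹ ∈ Q := fun e hy =>
    mul_mem ((mem_normalizer_iff.1 (hC (mem_centralizer_singleton_iff.2 e)) _).1 hy) (inv_mem hy)
  have i0 := inv_of_fpf (n hz) z2 fun k hk e => u k hk 1 (by
    simpa using hc fun y hy => (mul_inv_eq_iff_eq_mul.1 (mul_inv_eq_one.1 (u _ (by
      simpa [mul_assoc] using mul_mem hk ((mem_normalizer_iff.1 (n hy) _).1 (inv_mem hk))) 1 (by simpa using cm e hy)))).symm)
  have i1 : ∀ c, c * z * c⁻¹ ∈ Q → c⁻¹ * z * c ∈ Q → ∀ k ∈ K, c * z * c⁻¹ * k * (c * z * c⁻¹)⁻¹ = k⁻¹ := fun c p r =>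
    inv_of_fpf (n p) (by rw [conj_mul, z2]; simp) fun k hk e => t k hk 1 (u _ (pow_mem hk _) c (by
      have := cm (k := c⁻¹ * k * c) ((commute_conj_iff c).1 (by simpa [mul_assoc] using e)) r
      have j := i0 _ (inv_mem hk)
      rw [inv_inv] at j
      rwa [show c⁻¹ * k * c * (c⁻¹ * z * c) * (c⁻¹ * k * c)⁻¹ * (c⁻¹ * z * c)⁻¹ = c⁻¹ * (k * (z * k⁻¹ * z⁻¹)) * c by group, j, ← sq] at this))
  refine eq_bot_iff.2 fun k hk => t k hk 1 ?_
  have := i1 b (h2 ▸ mul_mem h1 hz) h4 k hk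
  rw [← h2, show a * z * a⁻¹ * z * k * (a * z * a⁻¹ * z)⁻¹ = a * z * a⁻¹ * (z * k * z⁻¹) * (a * z * a⁻¹)⁻¹ by group, i0 k hk,
    i1 a h1 h3 _ (inv_mem hk), inv_inv] at this
  rw [pow_one, sq]; exact mul_eq_one_iff_eq_inv.2 this

theorem main {D : Set G} {γ : ℕ → G} (M : A22.Is D γ) {C : Subgroup G} (hC : C = centralizer {γ 0 * γ 2}) {Q : Subgroup G}
    (hQ : Q = (generalizedFittingSubgroup C).map C.subtype) : IsLargeExtraspecial Q ∧ Nat.card Q = 2 ^ 11 ∧ Q ≤ C ∧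
      ∃ _ : (Q.subgroupOf C).Normal, Nonempty (C ⧸ Q.subgroupOf C ≃* O6.O) := by
  obtain ⟨_, X⟩ := M.mt
  have g9 : genW γ qs 10 = γ 0 * γ 2 := (genW_eq _ _ _).trans (congrArg _ (mul_one _))
  obtain ⟨z, A⟩ := (ssm X).aes2 ppc (le_trans (by decide +kernel) (pch ▸ (ssm X).card_ge (by decide) plv)) aes
  replace A := A 0 (by decide)
  have n := (ssm X).nd ppc (k := 0) rfl nd A.2 z
  have c : C = tl (genW γ qs) 11 0 ⊔ tl (genW γ C22.hs) 6 0 := by
    rw [tl_zero γ (us := qs) (n := 11) rfl, tl_zero γ (us := C22.hs) (n := 6) rfl, ← clW_append, hC]; simpa [cenW, cX, cm] using ceq M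
  have nW := tl_le (g := genW γ C22.hs) (n := 6) (k := 0) fun l _ q => genW_eq γ C22.hs l ▸ X.sm.nm' (allLt_iff.1 nm l q)
  obtain ⟨e⟩ := O6.of_cox (g := genW γ C22.hs) (fun _ q => genW_of_le q) ((usm X).evl.rels (usm X).base rl) (uch ▸ (usm X).card_ge (by decide) ulv)
  have EC := le_sup_left.trans c.ge
  have WC := le_sup_right.trans c.ge
  have q : IsPGroup 2 (tl (genW γ qs) 11 0) := .of_card A.1
  obtain ⟨-, N, ⟨f⟩⟩ := split_quot EC WC nW q e O6.core (c ▸ Nat.card_congr e.toEquiv ▸ card_sup_le nW)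
  have t := inv0.1 (inv_of_rels (gen := genW γ C22.hs) (m := 6) (fun _ q => genW_of_le q) (by decide) ((usm X).evl.rels (usm X).base rl) (by decide +kernel))
  have k : ⁅genW γ C22.hs 0, genW γ C22.hs 1⁆ = evalW (genW γ (C22.hs ++ qs)) [0, 1, 0, 1] := by
    rw [commutatorElement_def, inv_eq_of_mul_eq_one_right (t 0), inv_eq_of_mul_eq_one_right (t 1)]
    simp only [evalW_cons, evalW_nil, mul_one, mul_assoc, genW_eq]; rfl
  have cl := cen_le_of EC f O6.normal_cases A.2 (WC (mem_tl (j := 0) le_rfl (by decide))) (WC (mem_tl (j := 1) (by decide) (by decide)))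
    (mem_tl (j := 2) (by decide) (by decide)) (by
      rw [k]
      have a := M.neG (ws := C22.hs ++ qs) (u := [0, 1, 0, 1, 6 + 2]) (v := [6 + 2, 0, 1, 0, 1]) (i := 2) (by decide +kernel)
      have b := M.neG (ws := C22.hs ++ qs) (u := [0, 1, 0, 1, 6 + 2]) (v := [16, 6 + 2, 0, 1, 0, 1]) (i := 2) (by decide +kernel)
      simp only [evalW_cons, evalW_nil, mul_one, mul_assoc, genW_eq] at a b ⊢
      exact ⟨a, b⟩)
  obtain rfl : Q = tl (genW γ qs) 11 0 := by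
    rw [hQ, fstar_of (q.of_equiv (subgroupOfEquivOfLe EC).symm) f O6.core cl, map_subgroupOf_eq_of_le EC]
  have m : ∀ u v, (u, subW qs v) ∈ [(c1 ++ ([0, 2] ++ revW c1 []), subW qs (nthW nf 0)), (revW c1 [] ++ ([0, 2] ++ c1), subW qs (nthW nf 1)),
      (revW c2 [] ++ ([0, 2] ++ c2), subW qs (nthW nf 2))] → evalW γ u ∈ tl (genW γ qs) 11 0 := fun u v p => by
    rw [M.eq (by decide +kernel) p, tl_zero γ (us := qs) (n := 11) rfl]; exact subW_mem _ _ _
  have m1 := m _ _ (.head _)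
  have m2 := m _ _ (.tail _ (.head _))
  have m3 := m _ _ (.tail _ (.tail _ (.head _)))
  have m4 := M.eq (rs := [(c1 ++ ([0, 2] ++ (revW c1 [] ++ [0, 2])), c2 ++ ([0, 2] ++ revW c2 []))]) (by decide +kernel) (.head _)
  simp only [evalW_append, revW_eq, List.append_nil, evalW_reverse M.inv, evalW_cons, evalW_nil, mul_one] at m1 m2 m3 m4
  rw [g9] at A n
  generalize tl (genW γ qs) 11 0 = Q, γ 0 * γ 2 = z at *
  have cQ : centralizer (Q : Set G) ≤ Q := fun x hx => cl (x := ⟨x, hC.ge (mem_centralizer_singleton_iff.2 (hx z A.2.mem).symm)⟩)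
    fun y hy => Subtype.ext (hx y hy)
  have Z : (center Q).map Q.subtype = zpowers z := le_antisymm (by
    rintro _ ⟨x, hx, rfl⟩
    exact n ⟨x.2, fun y hy => congrArg Subtype.val (mem_center_iff.1 hx ⟨y, hy⟩)⟩)
    (zpowers_le.2 ⟨⟨z, A.2.mem⟩, mem_center_iff.2 fun y => Subtype.ext (A.2.cent y y.2), rfl⟩)
  have nC : centralizer {z} ≤ normalizer (Q : Set G) := hC ▸ (normal_subgroupOf_iff_le_normalizer EC).1 N
  refine ⟨⟨es_of_aes (a := 9) A.2 n A.1, Z ▸ le_antisymm (fun x hx => n ⟨cQ hx, hx⟩) (zpowers_le.2 A.2.cent), ?_,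
    fun K => odd_bot (a := evalW γ c1) (b := evalW γ c2) q nC cQ A.2.mem (by rw [← sq, ← A.2.ord, pow_orderOf_eq_one])
      (by simpa only [mul_assoc] using m1) (by simpa only [mul_assoc] using m4) (by simpa only [mul_assoc] using m2)
      (by simpa only [mul_assoc] using m3)⟩, A.1, EC, N, ⟨f⟩⟩
  rw [Z, zpowers_eq_closure, centralizer_closure]; exact nC

end H13.X22
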