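import Cfsg.Agent.H13.Y22D
import Cfsg.Agent.H13.E7m
import Cfsg.Agent.H13.X22

/-! The outer involutions of Fi22: `H13.Y22.outer`, `fix0`, `fix1`, `fix2`, `w7`, `loc`, `not_conj`. -/

set_option maxRecDepth 100000
set_option maxHeartbeats 400000

namespace H13.Y22

open Subgroup Cfsg A22

variable {G : Type*} [Group G] [Finite G] {D : Set G} {gen : ℕ → G} {s : MulAut G}

/-- the first transposition -/
noncomputable def aw : List ℕ := cjW [0] [1, 13, 3, 10]

/-- the second transposition -/
noncomputable def bw : List ℕ := cjW [0] [0, 11]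

theorem core_of {T : Type*} [Group T] {p : ℕ} [Fact p.Prime] {E : Subgroup G} [E.Normal] (q : IsPGroup p E) (e : G ⧸ E ≃* T)
    (hT : pCore p T = ⊥) : pCore p G = E :=
  le_antisymm (fun x hx => (QuotientGroup.eq_one_iff x).1 (e.map_eq_one_iff.1 ((hT ▸ H02.map_pCore_le
    (e.toMonoidHom.comp (QuotientGroup.mk' E)) (e.surjective.comp (QuotientGroup.mk'_surjective _))) ⟨x, hx, rfl⟩))) (H02.le_pCore q)

omit [Finite G] in
theorem r0 : genW (ga gen s) reps 0 = s := (genW_eq _ _ _).trans (mul_one _)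

omit [Finite G] in
theorem r1 : genW (ga gen s) reps 1 = s * MulAut.conj (evalW gen aw) :=
  (genW_eq _ _ _).trans (congrArg _ (ev_ga gen s (u := aw) (by decide +kernel)))

omit [Finite G] in
theorem r2 : genW (ga gen s) reps 2 = s * MulAut.conj (evalW gen aw * evalW gen bw) :=
  (genW_eq _ _ _).trans (congrArg _ ((ev_ga gen s (u := aw ++ bw) (by decide +kernel)).trans (by rw [evalW_append])))

variable (M : M22.Is D gen) (A : A22.Is (MulAut.conj '' D) (ga gen s))
include A

theorem not_conj {i j a b c d : ℕ} (h : cntF 3510 694 A22.nets 12 9 390 (nthW reps i) a b = true)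
    (h' : cntF 3510 694 A22.nets 12 9 390 (nthW reps j) c d = true) (n : a ≠ c) : ¬IsConj (genW (ga gen s) reps i) (genW (ga gen s) reps j) := fun q => by
  obtain ⟨g, e⟩ := isConj_iff.1 q
  have := (e ▸ fx_conj (fun g _ q => A.conj_mem q g) g _).ncard_eq
  rw [genW_eq, genW_eq, (A.cnt h (by decide)).1, (A.cnt h' (by decide)).1] at this
  exact n this

include M

theorem outer : s ∉ (MulAut.conj : G →* MulAut G).range := fun h => by
  have : (MulAut.conj : G →* MulAut G).range = ⊤ := eq_top_iff.2 (A.top.ge.trans ((closure_le _).2 (by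
    rintro _ ⟨l, rfl⟩
    by_cases q : l = 14
    · simpa [q] using h
    · simp [q])))
  have := Nat.card_le_card_of_surjective _ (MonoidHom.range_eq_top.1 this)
  rw [A.card, M.card] at this
  exact absurd this (by decide)

theorem fix_iff (hz : center G = ⊥) {i : ℕ} {us : List (List ℕ)} {c : G} (e : genW (ga gen s) reps i = s * MulAut.conj c)
    (h2 : relB A22.ev A22.bs [nthW reps i ++ nthW reps i] = true) (hu : allL (inB 0 14) us = true)
    (hc : cenW (ga gen s) [nthW reps i] = clW (ga gen s) (nthW reps i :: us)) (g : G) : (s * MulAut.conj c) g = g ↔ g ∈ clW gen us := by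
  have cj : Function.Injective (MulAut.conj : G →* MulAut G) := (injective_iff_map_eq_one _).2 fun x h =>
    mem_bot.1 (hz ▸ mem_center_iff.2 fun y => (mul_inv_eq_iff_eq_mul.1 (DFunLike.congr_fun h y)).symm)
  have m : clW (ga gen s) us = (clW gen us).map MulAut.conj := by
    rw [clW, clW, MonoidHom.map_closure, Set.image_image]
    exact congrArg _ (Set.image_congr fun u h => ev_ga gen s (allL_iff.1 hu u h))
  have sq := A.rels h2 _ (.head _)
  rw [cenW_one, clW_cons, ← genW_eq, e, m] at hc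
  rw [evalW_append, ← genW_eq, e] at sq
  have o : s * MulAut.conj c ∉ (MulAut.conj : G →* MulAut G).range := fun h => outer M A ((mul_mem_cancel_right (MonoidHom.mem_range.2 ⟨c, rfl⟩)).1 h)
  generalize s * MulAut.conj c = φ at *
  have k : ∀ g, φ g = g ↔ MulAut.conj g ∈ centralizer (zpowers φ : Set (MulAut G)) := fun g => by
    rw [cen_zpowers, mem_centralizer_singleton_iff, eq_comm (a := _ * φ), ← mul_inv_eq_iff_eq_mul,
      show φ * MulAut.conj g * φ⁻¹ = MulAut.conj (φ g) from MulEquiv.ext fun y => by simp, cj.eq_iff]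
  rw [k, hc]
  refine ⟨fun h => ?_, fun h => mem_sup_right (mem_map_of_mem _ h)⟩
  obtain ⟨_, ⟨j, rfl⟩, _, ⟨y, hy, rfl⟩, q⟩ := mem_sup_norm (le_norm_of_comm fun a p b r => (le_sup_right.trans hc.ge) r a p) h
  have t : φ ^ j = φ ^ (j % 2) := zpow_eq_zpow_emod j (by rw [zpow_two, sq])
  rcases Int.emod_two_eq_zero_or_one j with r | r <;> simp only [t, r, zpow_zero, zpow_one, one_mul] at q
  exacts [cj q ▸ hy, absurd ⟨g * y⁻¹, by simp [← q]⟩ o]

variable (hz : center G = ⊥)
include hz

omit [Finite G] M in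
theorem fix_of {u : List ℕ} (h : eqB A22.ev A22.bs [(14 :: u, u ++ [14])] = true) (hu : inB 0 14 u = true) : s (evalW gen u) = evalW gen u := by
  have e := A.eq h (.head _)
  rw [evalW_cons, evalW_append, ev_ga gen s hu, evalW_cons, evalW_nil, mul_one, show ga gen s 14 = s from Function.update_self ..] at e
  generalize evalW gen u = x at e ⊢
  refine (inv_mul_eq_one.1 (mem_bot.1 (hz ▸ mem_center_iff.2 fun y => ?_))).symm
  have := DFunLike.congr_fun e (s⁻¹ y)
  simp only [MulAut.mul_apply, MulAut.conj_apply, map_mul, map_inv, MulAut.apply_inv_self] at this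
  calc y * (x⁻¹ * s x) = x⁻¹ * (x * y * x⁻¹) * s x := by group
    _ = _ := by rw [← this]; group

theorem fix0 (g : G) : g ∈ tl (genW gen I22.rs) 9 0 ↔ s g = g := by
  simpa [tl_zero gen (us := I22.rs) (n := 9) rfl] using
    (fix_iff M A hz (c := 1) (by simpa using r0) (by decide +kernel) (by decide +kernel) (aeq A) g).symm

theorem fix1 (g : G) : (s * MulAut.conj (evalW gen aw)) g = g ↔ g ∈ clW gen (I22.rs.take 7) :=
  fix_iff M A hz r1 (by decide +kernel) (by decide +kernel) (bcen A) g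

theorem fix2 (g : G) : (s * MulAut.conj (evalW gen aw * evalW gen bw)) g = g ↔ g ∈ clW gen (es ++ hs) :=
  fix_iff M A hz r2 (by decide +kernel) (by decide +kernel) (ceq A) g

theorem w7 : tl (genW gen I22.rs) 9 0 ⊓ centralizer {evalW gen aw} = clW gen (I22.rs.take 7) :=
  le_antisymm (fun g h => (fix1 M A hz g).1 (by
    rw [MulAut.mul_apply, MulAut.conj_apply, mul_inv_eq_iff_eq_mul.2 (mem_centralizer_singleton_iff.1 h.2).symm, (fix0 M A hz g).1 h.1]))
    (le_inf ((clW_le fun _ h => evalW_mem_clW (List.mem_of_mem_take h)).trans (tl_zero gen (n := 9) rfl).ge)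
      (by simpa [cenW] using M.le_cen (ms := I22.rs.take 7) (X := [aw]) (by decide +kernel)))

omit A hz in
theorem e7 (hD : ∀ d ∈ D, d * d = 1) : Nonempty (clW gen (I22.rs.take 7) ≃* Multiplicative (ZMod 2) × PSp 3 (ZMod 2)) := by
  obtain ⟨_, X⟩ := M.mt
  have : tl (genW gen I22.rs) 7 0 = clW gen (I22.rs.take 7) := by
    rw [← tl_zero gen (us := I22.rs.take 7) (n := 7) rfl, tl, tl, Set.image_congr fun j hj => ?_]
    rw [genW_eq, genW_eq, (by decide +kernel : ∀ j < 7, nthW I22.rs j = nthW (I22.rs.take 7) j) j hj.2]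
  exact this ▸ E7.of_cox (I22.iv M) (M.relsG (by decide +kernel)) (wch ▸ (I22.ssm M hD X).card_ge (by decide) wlv)

omit A hz in
theorem loc {C : Subgroup G} (hC : C = clW gen (es ++ hs)) : ∃ O : Subgroup G, O = (pCore 2 C).map C.subtype ∧ IsElementaryAbelian 2 O ∧
    Nat.card O = 64 ∧ ∃ _ : (O.subgroupOf C).Normal, Nonempty (C ⧸ O.subgroupOf C ≃* O6.O) := by
  obtain ⟨_, X⟩ := M.mt
  obtain ⟨a, b⟩ := M.eaC (X := es) (p := 2) (a := 6) rfl (by decide) (by decide +kernel) ech
  have pc := (X.sm.genW es).pc epc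
  rw [← tl_zero gen (n := 6) rfl] at a b
  have c : Nat.card (tl (genW gen es) 6 0) = 64 := le_antisymm (pc.1.card_le (Nat.zero_le _)) b
  rw [X22.clW_append, ← tl_zero gen (us := es) (n := 6) rfl, ← tl_zero gen (us := hs) (n := 6) rfl] at hC
  have nW := tl_le (g := genW gen hs) (n := 6) (k := 0) fun l _ q => genW_eq gen hs l ▸ X.sm.nm' (allLt_iff.1 nm l q)
  obtain ⟨e⟩ := O6.of_cox (g := genW gen hs) (fun _ q => genW_of_le q) ((usm X).evl.rels (usm X).base rl) (uch ▸ (usm X).card_ge (by decide) ulv)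
  have EC := le_sup_left.trans hC.ge
  have q : IsPGroup 2 (tl (genW gen es) 6 0) := .of_card (n := 6) c
  obtain ⟨-, N, ⟨f⟩⟩ := split_quot EC (le_sup_right.trans hC.ge) nW q e O6.core (hC ▸ Nat.card_congr e.toEquiv ▸ X22.card_sup_le nW)
  exact ⟨_, by rw [core_of (q.of_equiv (subgroupOfEquivOfLe EC).symm) f O6.core, map_subgroupOf_eq_of_le EC], a, c, N, ⟨f⟩⟩

end H13.Y22
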