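import Cfsg.Agent.H13.Y24O
import Cfsg.Agent.H13.Y24V

/-! The triple cover of the commutator subgroup of Fi24: `H13.Y24.cover`. -/

set_option maxRecDepth 100000

namespace H13.Y24

open Cfsg Subgroup H29 MulAction
open F24 (Gp t24 tr3 tr3cls)
open scoped commutatorElement

theorem comm_cyc {C : Type*} [Group C] {z c : C} [(zpowers z).Normal] (h : c ∈ commutator C) : Commute c z := by
  have := Abelianization.commutator_subset_ker ((IsCyclic.mulAutMulEquiv (zpowers z)).toMonoidHom.comp MulAut.conjNormal) h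
  have a : MulAut.conjNormal (H := zpowers z) c = 1 := (IsCyclic.mulAutMulEquiv (zpowers z)).map_eq_one_iff.1 this
  exact mul_inv_eq_iff_eq_mul.1 (congrArg Subtype.val (DFunLike.congr_fun a (⟨z, mem_zpowers z⟩ : zpowers z)))

theorem perf_L : commutator (commutator Gp) = ⊤ :=
  have := simple_model
  perfect_of_simple (a := ⟨_, mL (x := 10) (y := 9) (by decide) (by decide)⟩) (b := ⟨_, mL (x := 11) (y := 9) (by decide) (by decide)⟩)
    fun e => F24.not_comm (by
      have k : ∀ x y, g x ∈ dperp DD (g 9) → g y ∈ dperp DD (g 9) → g x * g 9 * (g y * g 9) = g x * g y := fun x y _ h => by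
        rw [← h.2.2.eq, mul_assoc, ← mul_assoc (g 9), F24.sq, one_mul]
      have a := perpG (x := 9) (y := 10) (by decide +kernel)
      have b := perpG (x := 9) (y := 11) (by decide +kernel)
      exact (k _ _ a b).symm.trans ((congrArg Subtype.val e).trans (k _ _ b a)))

/-- the last relator -/
noncomputable def zw : List ℕ := rels.getD 79 []

theorem cover_of {C : Type} [Group C] [Finite C] {x : ℕ → C} (hI : Inv x 0) (h1 : ∀ l, 12 ≤ l → x l = 1) {z : C}
    [(zpowers z).Normal] (hR : Rels x (rels.take 79)) (e : evalW x zw = z) (h3 : orderOf z = 3) :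
    ∃ (Γ : Type) (_ : Group Γ) (_ : Finite Γ) (σ : Γ →* commutator Gp), IsStemExtension σ ∧ Nat.card σ.ker = 3 := by
  let π := QuotientGroup.mk' (zpowers z)
  have R : Rels (fun l => π (x l)) rels := fun r hr => by
    rw [← map_evalW]
    rcases (by decide +kernel : ∀ r ∈ rels, r ∈ rels.take 79 ∨ r = zw) r hr with h | rfl
    · rw [hR r h, map_one]
    · exact (QuotientGroup.eq_one_iff _).2 (e ▸ mem_zpowers _)
  let ψ := (presHom (hI.map π) hgs R).comp equiv.symm.toMonoidHom
  let Z : Subgroup (C × Gp) := (π.comp (MonoidHom.fst _ _)).eqLocus (ψ.comp (MonoidHom.snd _ _))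
  let y : ℕ → Z := fun l => ⟨(x l, φ (gen l)), ((congrArg (presHom (hI.map π) hgs R) (equiv.symm_apply_apply _)).trans
    (presHom_genL (hI.map π) hgs (by decide) R (fun l hl => by rw [h1 l hl, map_one]) l)).symm⟩
  let ρ : Z →* Gp := (MonoidHom.snd _ _).comp Z.subtype
  have w : ∀ r ∈ rels, ((evalW y r : Z) : C × Gp) = (evalW x r, 1) := fun r hr => (map_evalW Z.subtype y r).trans
    ((evalW_pair r).trans (by rw [← map_evalW, Y24.hR r hr, map_one]))
  have wz := w zw (by decide +kernel)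
  have k : ρ.ker = zpowers (evalW y zw) := le_antisymm (fun g hg => by
    obtain ⟨n, hn⟩ : g.1.1 ∈ zpowers z := (QuotientGroup.eq_one_iff _).1 (g.2.trans ((congrArg ψ hg).trans ψ.map_one))
    exact ⟨n, Subtype.ext (by rw [coe_zpow, wz, e]; exact Prod.ext hn ((one_zpow n).trans hg.symm))⟩)
    (zpowers_le.2 (congrArg Prod.snd wz))
  have s : Function.Surjective ρ := fun g => let ⟨c, hc⟩ := QuotientGroup.mk'_surjective _ (ψ g); ⟨⟨(c, g), hc⟩, rfl⟩
  have o : orderOf (evalW y zw) = 3 := by rw [← orderOf_coe, wz, e, Prod.orderOf, orderOf_one, Nat.lcm_one_right, h3]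
  have : (zpowers (evalW y zw)).Normal := k ▸ ρ.normal_ker
  let Γ := (commutator Gp).comap ρ
  let σ := ρ.subgroupComap (commutator Gp)
  have m : evalW y zw ∈ Γ := mem_comap.2 (by rw [show ρ (evalW y zw) = 1 from congrArg Prod.snd wz]; exact one_mem _)
  have k' : σ.ker = zpowers ⟨_, m⟩ := le_antisymm (fun g hg => let ⟨n, hn⟩ := k.le (congrArg Subtype.val hg); ⟨n, Subtype.ext hn⟩)
    (zpowers_le.2 (Subtype.ext (congrArg Prod.snd wz)))
  have s' := ρ.subgroupComap_surjective_of_surjective (commutator Gp) s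
  refine ⟨Γ, inferInstance, inferInstance, σ, ⟨s', k' ▸ zpowers_le.2 (mem_center_iff.2 fun g => Subtype.ext ?_),
    k' ▸ zpowers_le.2 ?_⟩, by rw [k', Nat.card_zpowers, ← orderOf_coe, o]⟩
  · obtain ⟨c, hc, q⟩ : ρ g ∈ (commutator Z).map ρ := by
      rw [map_commutator_eq, MonoidHom.range_eq_top.2 s]; exact g.2
    obtain ⟨n, hn⟩ := k.le (show c⁻¹ * g ∈ ρ.ker by simp [MonoidHom.mem_ker, q])
    rw [eq_inv_mul_iff_mul_eq] at hn
    have := (comm_cyc hc).mul_left ((Commute.refl (evalW y zw)).zpow_left n)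
    rwa [show c * _ = g.1 from hn] at this
  let τ := QuotientGroup.mk' ⁅Γ, Γ⁆
  have sq : ∀ l, y l * y l = 1 := inv0.1 (inv0.2 fun l => Subtype.ext (inv0.1 (hI.pair (Y24.hI.map φ)) l))
  have a : ∀ u v, u < 12 → v < 12 → [u, v, u, v] ∈ rels.take 79 → τ (y u) = τ (y v) := fun u v hu hv h => by
    have m : y u * y v ∈ Γ := show φ (gen u) * φ (gen v) ∈ commutator Gp by rw [φ_gen hu, φ_gen hv]; exact mL hu hv
    have b := pow_mem_commutator s' perf_L (n := 3) (fun t ht => by
      obtain ⟨n, rfl⟩ := k'.le ht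
      exact Subtype.ext (by rw [coe_pow, coe_zpow, ← zpow_natCast, zpow_comm, zpow_natCast, ← o, pow_orderOf_eq_one, one_zpow]; rfl)) ⟨_, m⟩
    have c : y u * y v * (y u * y v) = 1 := by
      simpa [mul_assoc] using (Subtype.ext ((w _ (List.mem_of_mem_take h)).trans (by rw [hR _ h]; rfl)) : evalW y [u, v, u, v] = 1)
    have d := (map_subtype_commutator Γ).le ⟨_, b, rfl⟩
    rw [subtype_apply, coe_pow, pow_succ, _root_.sq, c, one_mul] at d
    rw [← inv_eq_of_mul_eq_one_right (sq u)]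
    exact (QuotientGroup.eq.2 (by simpa using d)).trans rfl
  have b : ∀ l < 12, τ (y l) = τ (y 9) := fun l hl => by
    rcases (by decide +kernel : ∀ l < 12, l = 9 ∨ l = 6 ∨ [l, 9, l, 9] ∈ rels.take 79 ∨ [9, l, 9, l] ∈ rels.take 79) l hl
      with rfl | rfl | h | h
    exacts [rfl, (a 0 6 (by decide) hl (by decide +kernel)).symm.trans (a 0 9 (by decide) (by decide) (by decide +kernel)),
      a _ _ hl (by decide) h, (a _ _ (by decide) hl h).symm]
  have c : ∀ u : List ℕ, (∀ l ∈ u, l < 12) → τ (evalW y u) = τ (y 9) ^ u.length := fun u hu => by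
    induction u with
    | nil => simp
    | cons l u ih => rw [evalW_cons, map_mul, ih fun x hx => hu x (by simp [hx]), b l (hu l (by simp)), List.length_cons, pow_succ']
  have d := c zw (by decide +kernel)
  rw [show zw.length = 2 * 119 by decide +kernel, pow_mul, _root_.sq, ← map_mul, sq, map_one, one_pow] at d
  obtain ⟨t, ht, q⟩ := (map_subtype_commutator Γ).ge ((QuotientGroup.eq_one_iff _).1 d)
  exact (Subtype.ext q : t = ⟨_, m⟩) ▸ ht

theorem cover : ∃ (Γ : Type) (_ : Group Γ) (_ : Finite Γ) (σ : Γ →* commutator Gp),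
    IsStemExtension σ ∧ Nat.card σ.ker = 3 := by
  have c : ∀ l, cov F24.pm vE vF l ∈ normalizer (zpowers (deck 306936) : Set _) := fun l =>
    mem_normalizer_fintype (by
      rintro _ ⟨n, rfl⟩
      rw [← conj_zpow, cov_deck]
      exact zpow_mem (inv_mem (mem_zpowers _)) n)
  let x : ℕ → normalizer (zpowers (deck 306936) : Set _) := genW (fun l => ⟨cov F24.pm vE vF l, c l⟩) A12
  have e : ∀ r ∈ rels, ((evalW x r : normalizer _) : Equiv.Perm _) = evalW (cov F24.pm vE vF) r ∧ evalW F24.pm r = 1 ∧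
      r.length % 2 = 0 := fun r hr => by
    obtain ⟨a, b⟩ := (by decide +kernel : ∀ r ∈ rels, subW A12 r = r ∧ r.length % 2 = 0) r hr
    exact ⟨by rw [← evalW_subW, a]; exact map_evalW (Subgroup.subtype _) _ r,
      F24.φ.map_one ▸ relF' r hr ▸ (map_evalW F24.φ F24.gen r).symm, b⟩
  have R : Rels x (rels.take 79) := fun r hr => by
    obtain ⟨a, b, c⟩ := e r (List.mem_of_mem_take hr)
    refine Subtype.ext (a.trans ((evalW_cov F24.sysP b c).1 ?_))
    rcases (by decide +kernel : ∀ r ∈ rels.take 79, r ∈ (rels.drop 0).take 26 ∨ r ∈ (rels.drop 26).take 26 ∨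
      r ∈ (rels.drop 52).take 27) r hr with h | h | h
    exacts [allL_iff.1 v0 r h, allL_iff.1 v1 r h, allL_iff.1 v2 r h]
  obtain ⟨a, b, c⟩ := e zw (by decide +kernel)
  let z : normalizer (zpowers (deck 306936) : Set _) := ⟨deck 306936, le_normalizer (mem_zpowers _)⟩
  have : (zpowers z).Normal := ⟨by
    rintro _ ⟨n, rfl⟩ g
    obtain ⟨k, hk⟩ := (mem_normalizer_iff.1 g.2 _).1 (zpow_mem (mem_zpowers _) n)
    exact ⟨k, Subtype.ext hk⟩⟩
  refine cover_of (inv_of_rels (m := 12) (fun _ hl => genW_of_le hl) (by decide) R (by decide +kernel))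
    (fun _ hl => genW_of_le hl) R (z := z) (Subtype.ext (a.trans ((evalW_cov F24.sysP b c).2 vz))) ?_
  refine orderOf_eq_prime (Subtype.ext (show deck 306936 ^ 3 = 1 from Equiv.ext fun p => Prod.ext rfl ?_)) fun q => ?_
  · exact (by decide : ∀ c : ZMod 3, c + 1 + 1 + 1 = c) p.2
  · simpa [z, deck] using DFunLike.congr_fun (congrArg Subtype.val q) (0, 0)

end H13.Y24
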