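import Cfsg.Agent.H13.Y24M

/-! The Schur multiplier of the commutator subgroup of Fi24: `H13.Y24.key`, `mult`. -/

set_option maxRecDepth 100000

namespace H13.Y24

open Cfsg Subgroup H29 MulAction
open F24 (Gp t24 tr3 tr3cls)
open scoped commutatorElement

theorem K_perf {t : Gp} (h : t ∈ DD) : ⁅K t, K t⁆ = K t := by
  obtain ⟨e⟩ := K_equiv h
  have := map_commutator_eq _ e.symm.toMonoidHom
  rw [perf23, map_top_of_surjective _ e.symm.surjective, (MonoidHom.range_eq_top (f := e.symm.toMonoidHom)).2 e.symm.surjective] at this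
  rw [← map_subtype_commutator, _root_.commutator_def, ← this, ← MonoidHom.range_eq_map, range_subtype]

section
variable {X : Type} [Group X] [Finite X] {π : X →* Gp}

/-- the perfect preimage of `K t` -/
noncomputable def E (π : X →* Gp) (t : Gp) : Subgroup X := ⁅(K t).comap π, (K t).comap π⁆

omit [Finite X] in
theorem E_le {t : Gp} {e : X} (h : e ∈ E π t) : π e ∈ K t :=
  (commutator_le.2 fun _ a _ b => mul_mem (mul_mem (mul_mem a b) (inv_mem a)) (inv_mem b) : E π t ≤ (K t).comap π) h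

variable (hs : Function.Surjective π) (hc : ∀ a, π a = 1 → ∀ γ, π γ ∈ commutator Gp → Commute a γ)
include hs

omit [Finite X] in
theorem lift_comm {S : Subgroup Gp} {y : Gp} (h : y ∈ ⁅S, S⁆) : ∃ e ∈ ⁅S.comap π, S.comap π⁆, π e = y := by
  rwa [← map_comap_eq_self_of_surjective hs S, ← map_commutator] at h

include hc

omit [Finite X] hs in
theorem comm_le {P S : Subgroup X} (hP : ∀ p ∈ P, π p ∈ commutator Gp) (h : ∀ p ∈ P, ∃ e ∈ S, π e = π p) :
    ⁅P, P⁆ ≤ ⁅S, S⁆ := commutator_le.2 fun p hp q hq => by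
  obtain ⟨e, he, a⟩ := h p hp
  obtain ⟨f, hf, b⟩ := h q hq
  have c := hc (e⁻¹ * p) (by simp [a])
  have d := hc (f⁻¹ * q) (by simp [b])
  have : ⁅p, q⁆ = ⁅e, f⁆ := by
    have c1 := c q (hP q hq)
    have d1 := d e (a ▸ hP p hp)
    rw [← mul_inv_cancel_left e p, ← mul_inv_cancel_left f q] at *
    generalize e⁻¹ * p = u at *
    generalize f⁻¹ * q = v at *
    simp only [inv_mul_cancel_left] at c1 d1
    simp only [commutatorElement_def, mul_inv_rev]
    calc _ = e * (u * (f * v) * u⁻¹) * e⁻¹ * v⁻¹ * f⁻¹ := by group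
      _ = e * f * (v * e⁻¹ * v⁻¹) * f⁻¹ := by rw [conj_eq_of_commute c1]; group
      _ = _ := by rw [conj_eq_of_commute d1.inv_right]
  exact this ▸ commutator_mem_commutator he hf

theorem E_inj {t : Gp} (h : t ∈ DD) {e : X} (he : e ∈ E π t) (h1 : π e = 1) : e = 1 := by
  obtain ⟨θ⟩ := K_equiv h
  have a : ∀ y ∈ K t, ∃ e ∈ E π t, π e = y := fun y hy => lift_comm hs ((K_perf h).ge hy)
  let σ : E π t →* Spor.Fi23 := θ.toMonoidHom.comp ((π.comp (E π t).subtype).codRestrict _ fun x => E_le (π := π) x.2)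
  have := CExt.fi23_ker (π := σ) ⟨θ.surjective.comp fun y => let ⟨e, b, c⟩ := a _ y.2; ⟨⟨e, b⟩, Subtype.ext c⟩,
    fun z hz x => Subtype.ext (hc _ (congrArg Subtype.val (θ.map_eq_one_iff.1 hz)) _ (E_le x.2).1)⟩
    (map_injective (E π t).subtype_injective (by
      rw [map_subtype_commutator, ← MonoidHom.range_eq_map, range_subtype]
      exact le_antisymm (commutator_le.2 fun _ a _ b => mul_mem (mul_mem (mul_mem a b) (inv_mem a)) (inv_mem b))
        (comm_le hc (fun _ hp => hp.1) fun p hp => a _ hp)))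
  exact congrArg Subtype.val (this.le (x := ⟨e, he⟩) (θ.map_eq_one_iff.2 (Subtype.ext h1)))

theorem E_cen {s e : X} (h : π s ∈ DD) (he : e ∈ E π (π s)) : Commute s e := by
  have a : ((K (π s)).comap π).map (MulAut.conj s).toMonoidHom ≤ (K (π s)).comap π := by
    rintro _ ⟨x, hx, rfl⟩
    show π (s * x * s⁻¹) ∈ K (π s)
    rwa [map_mul, map_mul, map_inv, conj_eq_of_commute (mem_K.1 hx).2.symm]
  have b := commutator_mono a a ((map_commutator _ _ _).le (mem_map_of_mem (MulAut.conj s).toMonoidHom he))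
  refine mul_inv_eq_iff_eq_mul.1 (mul_inv_eq_one.1 (E_inj hs hc h (mul_mem b (inv_mem he)) ?_))
  show π (s * e * s⁻¹ * e⁻¹) = 1
  rw [map_mul, map_mul, map_mul, map_inv, conj_eq_of_commute (mem_K.1 (E_le he)).2.symm, map_inv, mul_inv_cancel]

theorem E_both {t u : Gp} (h : t ∈ DD) {e : X} (he : e ∈ E π t) (hy : π e ∈ ⁅K t ⊓ K u, K t ⊓ K u⁆) : e ∈ E π u := by
  obtain ⟨f, a, b⟩ := lift_comm hs hy
  rw [← mul_inv_eq_one.1 (E_inj hs hc h (mul_mem (commutator_mono (comap_mono inf_le_left) (comap_mono inf_le_left) a)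
    (inv_mem he)) (by simp [b]))]
  exact commutator_mono (comap_mono inf_le_right) (comap_mono inf_le_right) a

theorem exists_T {s : X} (h : π s ∈ DD) (h2 : s * s = 1) : ∃ T : Subgroup X, (∀ x, x * s ∈ E π (π s) → x ∈ T) ∧
    (∀ x ∈ T, π x = 1 → x = 1) ∧ ∀ x ∈ T, Commute (π x) (π s) := by
  have c : ∀ x, x * s ∈ E π (π s) → Commute s x := fun x hx => by
    simpa [mul_assoc, h2] using (E_cen hs hc h hx).mul_right (.refl s)
  refine ⟨⟨⟨⟨{x | x ∈ E π (π s) ∨ x * s ∈ E π (π s)}, ?_⟩, Or.inl (one_mem _)⟩, ?_⟩, fun x hx => Or.inr hx, ?_, ?_⟩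
  · rintro x y (a | a) (b | b)
    · exact Or.inl (mul_mem a b)
    · exact Or.inr (mul_assoc x y s ▸ mul_mem a b)
    · exact Or.inr (by rw [mul_assoc, ← (E_cen hs hc h b).eq, ← mul_assoc]; exact mul_mem a b)
    · exact Or.inl (by simpa [mul_assoc, ← (c y b).eq, ← mul_assoc s, h2] using mul_mem a b)
  · rintro x (a | a)
    · exact Or.inl (inv_mem a)
    · exact Or.inr (by simpa [inv_eq_of_mul_eq_one_right h2, (c x a).inv_right.eq] using inv_mem a)
  · rintro x (a | a) b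
    · exact E_inj hs hc h a b
    · exact absurd (by simpa [b] using (E_le a).1) (nmL h)
  · rintro x (a | a)
    · exact (mem_K.1 (E_le a)).2
    · exact ((c x a).map π).symm

theorem lifts {s : X} (s1 : π s = g 11) (s2 : s * s = 1) : ∃ (F : ℕ → X) (T : Subgroup X), (∀ l < 13, π (F l) = g l) ∧
    (∀ l < 13, l ≠ 10 → F l ∈ T) ∧ (∀ x ∈ T, π x = 1 → x = 1) ∧ (∀ x ∈ T, Commute (π x) (g 11)) ∧
      ∀ r ∈ F24.rs, r ≠ [10, 12, 10, 12] → evalW F r = 1 := by
  have m : ∀ {x}, x < 12 → g x ∈ DD := memD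
  have p : ∀ x < 10, g x ∈ dperp DD (g 11) := fun x hx => perpG (by revert x; decide +kernel)
  have q : ∀ x ∈ [0, 1, 2, 3, 4, 5, 7, 8, 10, 11], g x ∈ dperp DD (g 9) := fun x hx => perpG (by revert x; decide +kernel)
  have a : ∀ x, ∃ e, x < 10 → e ∈ E π (g 11) ∧ π e = g x * g 11 := fun x => by
    by_cases h : x < 10
    · exact (lift_comm hs ((K_perf (m (by decide))).ge (mem_K.2 ⟨mL (by omega) (by decide),
        (p x h).2.2.symm.mul_left (.refl _)⟩))).imp fun _ h _ => h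
    · exact ⟨1, fun c => absurd c h⟩
  choose la hl using a
  have hla := hl
  have sc : ∀ y < 10, la y * s = s * la y := fun y hy => (E_cen hs hc (s := s) (s1 ▸ m (by decide)) (s1 ▸ (hl y hy).1)).symm
  obtain ⟨κ, k1, k2⟩ := lift_comm hs ((K_perf (m (x := 9) (by decide))).ge (mem_K.2 ⟨mL (x := 10) (by decide) (by decide),
    (q 10 (by decide)).2.2.symm.mul_left (.refl _)⟩))
  let f : ℕ → X := fun x => if x < 10 then la x * s else if x = 10 then κ * (la 9 * s) else s
  let F := Function.update f 12 (evalW f ((nthW F24.rs 82).take 71))⁻¹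
  have f0 : ∀ x < 10, F x = la x * s := fun x hx => (Function.update_of_ne (by omega) _ _).trans (if_pos hx)
  have f10 : F 10 = κ * (la 9 * s) := rfl
  have f11 : F 11 = s := rfl
  have w : ∀ u : List ℕ, (∀ l ∈ u, l < 10) → evalW f u = evalW F u := fun u hu => by
    induction u with
    | nil => rfl
    | cons l u ih => rw [evalW_cons, evalW_cons, ih fun x hx => hu x (by simp [hx]), f0 l (hu l (by simp))]; simp [f, hu l]
  have f12 : F 12 = (evalW F ((nthW F24.rs 82).take 71))⁻¹ := by rw [← w _ (by decide +kernel)]; rfl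
  have e0 : ∀ l < 12, π (F l) = g l := fun l hl => by
    have b : ∀ l < 10, π (la l * s) = g l := fun l hl => by rw [map_mul, (hla l hl).2, s1, mul_assoc, F24.sq, mul_one]
    rcases (by decide : ∀ x < 12, x < 10 ∨ x = 10 ∨ x = 11) l hl with h | rfl | rfl
    exacts [f0 l h ▸ b l h, by rw [f10, map_mul, b 9 (by decide), k2, mul_assoc, F24.sq, mul_one], s1]
  have ev : ∀ n, (∀ l < n, π (F l) = g l) → ∀ u : List ℕ, (∀ l ∈ u, l < n) → π (evalW F u) = evalW g u := fun n hn u hu => by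
    induction u with
    | nil => exact map_one π
    | cons l u ih => rw [evalW_cons, evalW_cons, map_mul, ih fun x hx => hu x (by simp [hx]), hn l (hu l (by simp))]
  have e1 : ∀ l < 13, π (F l) = g l := fun l hl => by
    rcases Nat.lt_succ_iff_lt_or_eq.1 hl with h | rfl
    · exact e0 l h
    have b := F24.hR _ ((by decide +kernel : (nthW F24.rs 82).take 71 ++ [12] ∈ F24.rs))
    rw [evalW_append, evalW_cons, evalW_nil, mul_one, mul_eq_one_iff_inv_eq] at b
    rw [f12, map_inv, ev 12 e0 _ (by decide +kernel), b]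
  obtain ⟨T, t1, t2, t3⟩ := exists_T hs hc (s1 ▸ m (by decide)) s2
  rw [s1] at t1 t3
  have u0 : ∀ l < 10, F l ∈ T := fun l h => t1 _ (by rw [f0 l h, mul_assoc, s2, mul_one]; exact (hl l h).1)
  have u1 : ∀ l < 13, l ≠ 10 → F l ∈ T := fun l h h' => by
    rcases (by decide : ∀ x < 13, x ≠ 10 → x < 10 ∨ x = 11 ∨ x = 12) l h h' with h | rfl | rfl
    exacts [u0 l h, t1 _ (f11 ▸ s2 ▸ one_mem _),
      f12 ▸ inv_mem (evalW_mem fun x hx => u0 x ((by decide +kernel : ∀ x ∈ (nthW F24.rs 82).take 71, x < 10) x hx))]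
  have sq : ∀ l < 10, F l * F l = 1 := fun l h => t2 _ (mul_mem (u0 l h) (u0 l h)) (by rw [map_mul, e1 l (by omega), F24.sq])
  have ff : ∀ x < 10, ∀ y < 10, F x * F y = la x * la y := fun x hx y hy => by
    rw [f0 x hx, f0 y hy, sc y hy, mul_assoc, ← mul_assoc s, s2, one_mul]
  have bo : ∀ u < 10, ∀ x < 10, g x ∈ dperp DD (g u) → la x ∈ E π (g u) ∧ la u ∈ E π (g u) := fun u hu x hx h =>
    have b := perf (m (by decide)) (p u hu) (tri (p u hu) (p x hx) h)
    ⟨E_both hs hc (m (by decide)) (hl x hx).1 ((hl x hx).2 ▸ b.1), E_both hs hc (m (by decide)) (hl u hu).1 ((hl u hu).2 ▸ b.2)⟩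
  obtain ⟨J, j1, j2, -⟩ := exists_T hs hc (e1 9 (by decide) ▸ m (by decide)) (sq 9 (by decide))
  obtain ⟨B, b1, b2, -⟩ := exists_T hs hc (e1 1 (by decide) ▸ m (by decide)) (sq 1 (by decide))
  rw [e1 _ (by decide)] at j1 b1
  have v1 : ∀ l < 12, l ≠ 6 → F l ∈ J := fun l h h' => j1 _ (by
    rcases (by decide : ∀ x < 12, x ≠ 6 → x < 10 ∧ x ∈ [0, 1, 2, 3, 4, 5, 7, 8, 10, 11] ∨ x = 9 ∨ x = 10 ∨ x = 11) l h h'
      with h | rfl | rfl | rfl
    · exact ff l h.1 9 (by decide) ▸ mul_mem (bo 9 (by decide) l h.1 (q l h.2)).1 (bo 9 (by decide) l h.1 (q l h.2)).2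
    · exact sq 9 (by decide) ▸ one_mem _
    · rwa [f10, ← f0 9 (by decide), mul_assoc, sq 9 (by decide), mul_one]
    · rw [f11, f0 9 (by decide), sc 9 (by decide), ← mul_assoc, s2, one_mul]
      exact (bo 9 (by decide) 0 (by decide) (q 0 (by decide))).2)
  have v2 := bo 1 (by decide) 6 (by decide) (perpG (by decide +kernel))
  have v3 := bo 1 (by decide) 9 (by decide) (perpG (by decide +kernel))
  have v4 := E_both hs hc (m (by decide)) k1 (k2 ▸ (perf (m (by decide)) (q 1 (by decide))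
    (tri (q 1 (by decide)) (q 10 (by decide)) (perpG (by decide +kernel)))).1)
  refine ⟨F, T, e1, u1, t2, t3, fun r hr hn => ?_⟩
  obtain ⟨c, d⟩ := (by decide +kernel : ∀ r ∈ F24.rs, r ≠ [10, 12, 10, 12] → (∀ l ∈ r, l < 13) ∧
    ((∀ l ∈ r, l ≠ 10) ∨ (∀ l ∈ r, l < 12 ∧ l ≠ 6) ∨ ∀ l ∈ r, l = 6 ∨ l = 10)) r hr hn
  have e := (ev 13 e1 r c).trans (F24.hR r hr)
  rcases d with d | d | d
  · exact t2 _ (evalW_mem fun l hl => u1 l (c l hl) (d l hl)) e
  · exact j2 _ (evalW_mem fun l hl => v1 l (d l hl).1 (d l hl).2) e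
  refine b2 _ (evalW_mem fun l hl => b1 _ ?_) e
  rcases d l hl with rfl | rfl
  · exact ff 6 (by decide) 1 (by decide) ▸ mul_mem v2.1 v2.2
  · rw [f10, ← f0 9 (by decide), mul_assoc, ff 9 (by decide) 1 (by decide)]
    exact mul_mem v4 (mul_mem v3.1 v3.2)

theorem key {s : X} (s1 : π s = g 11) (s2 : s * s = 1) : ∃ h, π h = 1 ∧ h ^ 3 = 1 ∧
    ∀ c ∈ ⁅(commutator Gp).comap π, (commutator Gp).comap π⁆, π c = 1 → c ∈ zpowers h := by
  obtain ⟨F, T, e, u, t, t', R⟩ := lifts hs hc s1 s2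
  have ev : ∀ u : List ℕ, (∀ l ∈ u, l < 13) → π (evalW F u) = evalW g u := fun u hu => by
    induction u with
    | nil => exact map_one π
    | cons l u ih => rw [evalW_cons, evalW_cons, map_mul, ih fun x hx => hu x (by simp [hx]), e l (hu l (by simp))]
  have sq : ∀ l < 13, F l * F l = 1 := fun l hl => by
    simpa using R [l, l] ((by decide +kernel : ∀ l < 13, [l, l] ∈ F24.rs) l hl) (by simp)
  obtain ⟨h, hh⟩ : ∃ h, h = F 10 * F 12 * F 10 * F 12 := ⟨_, rfl⟩
  have h0 : h = evalW F [10, 12, 10, 12] := by simp [hh, mul_assoc]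
  have h1 : π h = 1 := h0 ▸ (ev _ (by decide)).trans (F24.hR _ (by decide +kernel))
  have i10 := inv_eq_of_mul_eq_one_right (sq 10 (by decide))
  have i12 := inv_eq_of_mul_eq_one_right (sq 12 (by decide))
  have a : F 10 * h * (F 10)⁻¹ = h⁻¹ := by
    simp [hh, i10, i12, mul_assoc, ← mul_assoc (F 10) (F 10), sq 10 (by decide)]
  have n : ∀ γ, γ * h * γ⁻¹ = h ∨ γ * h * γ⁻¹ = h⁻¹ ∧ π γ ∉ commutator Gp := fun γ => by
    by_cases c : π γ ∈ commutator Gp
    · exact Or.inl (conj_eq_of_commute (hc h h1 γ c).symm)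
    have := (hc h h1 (γ * F 10) (by
      rw [map_mul, e 10 (by decide)]
      exact (mul_mem_iff_of_index_two index_L).2 (iff_of_false c (nmL (memD (by decide)))))).inv_left.symm
    refine Or.inr ⟨?_, c⟩
    calc _ = γ * F 10 * (F 10 * h * (F 10)⁻¹) * (γ * F 10)⁻¹ := by simp [mul_assoc, i10, ← mul_assoc (F 10) (F 10), sq 10 (by decide)]
      _ = _ := by rw [a, conj_eq_of_commute this]
  have : (zpowers h).Normal := ⟨by
    rintro _ ⟨k, rfl⟩ γ
    rw [← conj_zpow]
    rcases n γ with c | c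
    exacts [c.symm ▸ zpow_mem (mem_zpowers h) k, c.1.symm ▸ zpow_mem (inv_mem (mem_zpowers h)) k]⟩
  refine ⟨h, h1, ?_, fun c c1 c2 => ?_⟩
  · have r3 : (F 9 * F 12) ^ 3 = 1 := t _ (pow_mem (mul_mem (u 9 (by decide) (by decide)) (u 12 (by decide) (by decide))) 3) (by
      simpa [e, pow_succ, mul_assoc] using relG (rs := [[9, 12, 9, 12, 9, 12]]) (by decide +kernel) _ List.mem_cons_self)
    have r4 : π (F 9 * F 12) ∈ commutator Gp := by
      have b := pow_mem (mul_self_mem_of_index_two index_L (π (F 9 * F 12))) 2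
      rwa [← _root_.sq, ← pow_mul, pow_succ _ 3, ← map_pow, r3, map_one, one_mul] at b
    have r2 : MulAut.conj (F 9 * F 12) h⁻¹ = h⁻¹ := conj_eq_of_commute (hc h h1 _ r4).inv_left.symm
    have j : F 9 * F 10 * (F 9)⁻¹ = F 10 := by
      have := R [9, 10, 9, 10] (by decide +kernel) (by decide)
      simp only [evalW_cons, evalW_nil, mul_one, ← mul_assoc] at this
      rw [inv_eq_of_mul_eq_one_right (sq 9 (by decide)), eq_inv_of_mul_eq_one_left this, i10]
    have j' : F 9 * h * (F 9)⁻¹ = h⁻¹ := by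
      have := (hc h h1 (F 9 * F 10) (by rw [map_mul, e 9 (by decide), e 10 (by decide)]; exact mL (by decide) (by decide))).inv_left.symm
      calc _ = F 9 * F 10 * (F 10 * h * (F 10)⁻¹) * (F 9 * F 10)⁻¹ := by simp [mul_assoc, i10, ← mul_assoc (F 10) (F 10), sq 10 (by decide)]
        _ = _ := by rw [a, conj_eq_of_commute this]
    have r1 : MulAut.conj (F 9 * F 12) (F 10) = F 10 * h⁻¹ := by
      calc _ = F 9 * F 10 * (F 9)⁻¹ * (F 9 * h * (F 9)⁻¹) := by simp [hh, i12, mul_assoc, ← mul_assoc (F 10) (F 10), sq 10 (by decide)]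
        _ = _ := by rw [j, j']
    have := DFunLike.congr_fun (congrArg MulAut.conj r3) (F 10)
    rw [map_pow, map_one] at this
    generalize MulAut.conj (F 9 * F 12) = c at this r1 r2
    rw [pow_succ, _root_.sq, MulAut.mul_apply, MulAut.mul_apply, r1, map_mul, r1, r2, map_mul, map_mul, r1, r2,
      MulAut.one_apply, mul_assoc, mul_assoc, mul_eq_left] at this
    rw [← inv_eq_one, ← inv_pow, ← this, pow_succ', _root_.sq]
  let q := QuotientGroup.mk' (zpowers h)
  have k := stage_le (gen := fun l => q (F l)) (ws := F24.A13) F24.hok (fun r hr => (evalW_subW F24.A13 r).symm.trans <| by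
      rw [(by decide +kernel : ∀ r ∈ F24.rs, subW F24.A13 r = r) r hr, ← map_evalW]
      by_cases c : r = [10, 12, 10, 12]
      · exact (QuotientGroup.eq_one_iff _).2 (c ▸ h0 ▸ mem_zpowers h)
      · rw [R r hr c, map_one])
    (fun r hr => F24.φ.map_one ▸ F24.hR r hr ▸ (map_evalW F24.φ F24.gen r).symm) F24.cos (H := T.map q) fun l hl => by
      obtain ⟨a, b, c⟩ := (by decide +kernel : ∀ l ∈ [0, 1, 2, 3, 4, 5, 6, 7, 8, 9, 11, 12],
        nthW F24.A13 l = [l] ∧ l < 13 ∧ l ≠ 10) l hl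
      rw [a, evalW_cons, evalW_nil, mul_one]
      exact mem_map_of_mem _ (u l b c)
  have k1 : Nat.card (T.map q) ≤ 2 * 4089470473293004800 := (Nat.card_le_card_of_surjective _ (q.subgroupMap_surjective T)).trans
    (card_C ▸ Nat.card_le_card_of_injective ((π.comp T.subtype).codRestrict _ fun x =>
      mem_centralizer_singleton_iff.2 (t' _ x.2)) ((injective_iff_map_eq_one _).2 fun x hx =>
        Subtype.ext (t _ x.2 (congrArg Subtype.val hx))))
  have sj : ∀ y, ∃ x ∈ clW F F24.A13, π x = y := fun y => ((F24.top.ge.trans ((closure_le ((clW F F24.A13).map π)).2 (by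
    rintro _ ⟨l, hl, rfl⟩
    exact ⟨_, evalW_mem_clW ((by decide : ∀ l < 13, [l] ∈ F24.A13) l hl), by simp [e l hl]⟩))) trivial :)
  let ψ := (QuotientGroup.lift (zpowers h) π (by rintro _ ⟨k, rfl⟩; simp [h1])).comp (clW (fun l => q (F l)) F24.A13).subtype
  have := k.1
  have b : Function.Bijective ψ := Function.Surjective.bijective_of_nat_card_le (fun y =>
    let ⟨x, a, b⟩ := sj y; ⟨⟨q x, (map_clW q _).le ⟨x, a, rfl⟩⟩, b⟩)
    (k.2.trans ((Nat.mul_le_mul_left _ k1).trans F24.card_eq.ge))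
  have c3 : c ∈ clW F F24.A13 := (commutator_le.2 fun _ a _ b => mul_mem (mul_mem (mul_mem a b) (inv_mem a)) (inv_mem b) :
    ⁅_, _⁆ ≤ clW F F24.A13) (comm_le hc (fun _ hp => hp) (fun p _ => sj _) c1)
  exact (QuotientGroup.eq_one_iff _).1 (congrArg Subtype.val
    ((injective_iff_map_eq_one ψ).1 b.1 ⟨q c, (map_clW q _).le ⟨c, c3, rfl⟩⟩ c2))

end

/-- the homomorphism given by an involution -/
def homU {H : Type*} [Group H] (x : H) (h : x * x = 1) : ℤˣ →* H :=
  MonoidHom.mk' (fun u => if u = 1 then 1 else x) fun u v => by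
    rcases Int.units_eq_one_or u with rfl | rfl <;> rcases Int.units_eq_one_or v with rfl | rfl <;> simp [h]

theorem upper_L (Δ : Type) [Group Δ] [Finite Δ] (σ : Δ →* commutator Gp) (hσ : IsStemExtension σ) :
    IsCyclic σ.ker ∧ ∀ k ∈ σ.ker, k ^ 3 = 1 := by
  let τ : MulAut (commutator Gp) := MulAut.conjNormal (g 11)
  have τ2 : ∀ v, τ (τ v) = v := fun v => by rw [← MulAut.mul_apply, ← map_mul, F24.sq, map_one, MulAut.one_apply]
  let Y : Subgroup (Δ × Δ) := ((τ.toMonoidHom.comp σ).comp (MonoidHom.fst _ _)).eqLocus (σ.comp (MonoidHom.snd _ _))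
  let sw : Y →* Y := ((MulEquiv.prodComm (M := Δ) (N := Δ)).toMonoidHom.comp Y.subtype).codRestrict _ fun y => (congrArg τ y.2.symm).trans (τ2 _)
  let ω : ℤˣ →* MulAut Y := homU (MonoidHom.toMulEquiv sw sw rfl rfl) rfl
  let p : Y →* Δ := (MonoidHom.fst _ _).comp Y.subtype
  let ν : Y →* Gp := (commutator Gp).subtype.comp (σ.comp p)
  let π : Y ⋊[ω] ℤˣ →* Gp := SemidirectProduct.lift ν (homU (g 11) (F24.sq 11)) fun u => MonoidHom.ext fun y => by
    rcases Int.units_eq_one_or u with rfl | rfl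
    · simp
    · exact congrArg Subtype.val y.2.symm
  have : Finite (Y ⋊[ω] ℤˣ) := Finite.of_equiv _ SemidirectProduct.equivProd.symm
  have ps : Function.Surjective p := fun x => let ⟨y, h⟩ := hσ.1 (τ (σ x)); ⟨⟨(x, y), h.symm⟩, rfl⟩
  have r : ∀ γ, π γ ∈ commutator Gp → γ = .inl γ.left := fun γ h => by
    rcases Int.units_eq_one_or γ.right with c | c
    · exact SemidirectProduct.ext rfl c
    · exact absurd ((mul_mem_cancel_left (σ (p γ.left)).2).1 h) (c ▸ nmL (memD (l := 11) (by decide)))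
  have l : ∀ y, π (.inl y) = σ (p y) := fun y => SemidirectProduct.lift_inl _ _ _ y
  obtain ⟨h, h1, h2, h3⟩ := key (π := π) (s := .inr (-1)) (fun y => by
    have k : ∀ v ∈ commutator Gp, v ∈ π.range := fun v hv =>
      let ⟨x, a⟩ := (hσ.1.comp ps) ⟨v, hv⟩; ⟨.inl x, (l x).trans (congrArg Subtype.val a)⟩
    by_cases c : y ∈ commutator Gp
    · exact k y c
    · exact (mul_mem_cancel_right (show g 11 ∈ π.range from ⟨.inr (-1), SemidirectProduct.lift_inr _ _ _ _⟩)).1 (k _
        ((mul_mem_iff_of_index_two index_L).2 (iff_of_false c (nmL (memD (by decide))))))) (fun a ha γ hγ => by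
    rw [r a (ha ▸ one_mem _), r γ hγ]
    have a1 : σ a.left.1.1 = 1 := Subtype.ext ((l _).symm.trans (r a (ha ▸ one_mem _) ▸ ha))
    have a2 : σ a.left.1.2 = 1 := a.left.2.symm.trans ((congrArg τ a1).trans (map_one τ))
    exact Commute.map (Subtype.ext (Prod.ext (mem_center_iff.1 (hσ.2.1 a1) _).symm (mem_center_iff.1 (hσ.2.1 a2) _).symm)) _)
    (SemidirectProduct.lift_inr _ _ _ _) (by rw [← map_mul]; rfl)
  have e := r h (h1 ▸ one_mem _)
  have k : σ.ker = zpowers (p h.left) := le_antisymm (fun k hk => by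
    obtain ⟨c, c1, rfl⟩ : k ∈ (commutator Y).map p := by
      rw [map_commutator_eq, MonoidHom.range_eq_top.2 ps]; exact hσ.2.2 hk
    have a : (⊤ : Subgroup Y).map SemidirectProduct.inl ≤ (commutator Gp).comap π := by
      rintro _ ⟨y, -, rfl⟩; exact mem_comap.2 (l y ▸ (σ (p y)).2)
    obtain ⟨n, hn⟩ := h3 (.inl c) (commutator_mono a a ((map_commutator _ _ _).le (mem_map_of_mem _ c1)))
      ((l c).trans (congrArg Subtype.val hk))
    rw [e] at hn
    exact ⟨n, by rw [← SemidirectProduct.inl_injective ((map_zpow _ _ _).trans hn)]; exact (map_zpow _ _ _).symm⟩)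
    (zpowers_le.2 (Subtype.ext ((l _).symm.trans (e ▸ h1))))
  rw [k]
  refine ⟨inferInstance, ?_⟩
  rintro _ ⟨n, rfl⟩
  have : h.left ^ 3 = 1 := SemidirectProduct.inl_injective (φ := ω) (by rw [map_pow, ← e, h2, map_one])
  simp only []
  rw [← zpow_natCast, zpow_comm, zpow_natCast, ← map_pow, this, map_one, one_zpow]

theorem mult : HasCyclicSchurMultiplier (commutator Gp) 3 :=
  let ⟨_, _, _, _, a, b⟩ := cover
  H16.hasCyclic_of a b upper_L

end H13.Y24
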