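import Cfsg.Agent.H13.Sm
import Cfsg.Agent.H13.Pair

/-! Commutation relators from a coset table: `H13.cmOk`, `H13.stage_comm`. -/

namespace H13

open H14.PK H14.PK.TS H27.PKx H27.MG

variable {G : Type*} [Group G] {gen : ℕ → G}

/-- the commutator of two words -/
noncomputable def cmW (v x : List ℕ) : List ℕ := v ++ (x ++ invA 0 v (invW 0 x))

theorem cmW_iff (hI : Inv gen 0) {v x : List ℕ} : evalW gen (cmW v x) = 1 ↔ Commute (evalW gen v) (evalW gen x) := by
  rw [cmW, evalW_append, evalW_append, evalW_invA hI, evalW_invW hI, ← commutatorElement_eq_one_iff_commute,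
    commutatorElement_def]
  simp only [mul_assoc]

/-- the subgroup words commute with `x`, the words `us` fix the first coset, `outs` are the resulting commutators -/
noncomputable def cmOk (st vs : List (List ℕ)) (T : Stg) (x : List ℕ) (us outs : List (List ℕ)) : Bool :=
  band (allL (fun v => knownOk 0 st (cmW v x)) vs) (band (allL (fun u => band (allL (fun l => Nat.blt l T.ws.length) u)
    (Nat.beq (Nat.land (Nat.shiftRight (apW T.nets u (p2 0)) 0) 1) 1)) us)
    (kbOk 0 outs [] (us.map fun u => redW 0 (cmW (subW T.ws u) x))))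

theorem stage_comm (hI : Inv gen 0) {st vs us outs : List (List ℕ)} (hR : Rels gen st) {T : Stg} {x : List ℕ}
    (h : stageOk 0 st vs T = true) (e : cmOk st vs T x us outs = true) : Rels gen outs := by
  simp only [stageOk, band_eq_true, Nat.blt_eq, Nat.beq_eq] at h
  obtain ⟨h0, h1, h2, h3, h4, h5, h6⟩ := h
  simp only [cmOk, band_eq_true] at e
  obtain ⟨e1, e2, e3⟩ := e
  have : NeZero T.n := ⟨by omega⟩
  have S := sys_perm1 T.n T.nets h2
  have hc : clW gen vs ≤ Subgroup.centralizer {evalW gen x} := clW_le fun v hv =>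
    Subgroup.mem_centralizer_singleton_iff.2 ((cmW_iff hI).1 (hR.known hI (allL_iff.1 e1 v hv))).eq
  obtain ⟨val, v0, hv⟩ := S.tab (x₀ := tc (evalW gen x)) (hR.sub hI h4) (S.rels_perm (finPts_all _) h5)
    (fun l hl => tc_fix.2 (by
      rw [genW_eq]; exact Subgroup.mem_centralizer_singleton_iff.1 (hc (mem_clW_of_inOk (allL_iff.1 h3 l hl)))))
    (h1 ▸ CosOk.of_ok h0 h6)
  refine Rels.kb hI (fun r hr => ?_) [] e3
  obtain ⟨u, hu, rfl⟩ := List.mem_map.1 hr
  have q := allL_iff.1 e2 u hu
  rw [band_eq_true] at q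
  have hk : evalW (fun l => (genW gen T.ws l, perm1 T.n T.nets h2 l)) u ∈
      clG (fun l => (genW gen T.ws l, perm1 T.n T.nets h2 l)) T.ws.length :=
    evalW_mem fun l hl => mem_clG (Nat.blt_eq.mp (allL_iff.1 q.1 l hl))
  rw [evalW_pair] at hk
  obtain ⟨f, f1, f2⟩ := S.tab_pair hv hk
  have h7 := f2 0 h0
  rw [(f1.smul_eq_iff h0 h0).1 (S.fix1 h0 q.2), v0] at h7
  rw [evalW_redW hI, cmW_iff hI, evalW_subW]
  exact tc_fix.1 h7

end H13
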