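import Cfsg.Agent.H13.YB
import Cfsg.Prelude.Def_Spor_M

/-! The spider relation on Y555 implies the six arm relations. -/

set_option maxRecDepth 100000
set_option Elab.async false

namespace H13.YD

open Cfsg Cfsg.Spor Cfsg.Spor.Bimonster

/-- the generators -/
def gs : List Gen := [.a, .b1, .c1, .d1, .e1, .f1, .b2, .c2, .d2, .e2, .f2, .b3, .c3, .d3, .e3, .f3]

/-- the spider relator -/
abbrev sp : List (FreeGroup Gen) := [(a * b1 * c1 * a * b2 * c2 * a * b3 * c3) ^ 10]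

def rels : List (List ℕ) := [[0, 0], [0, 1, 0, 1, 0, 1], [0, 2, 0, 2], [0, 3, 0, 3], [0, 4, 0, 4], [0, 5, 0, 5], [0, 6, 0, 6, 0, 6], [0, 7, 0, 7], [0, 8, 0, 8], [0, 9, 0, 9], [0, 10, 0, 10], [0, 11, 0, 11, 0, 11], [0, 12, 0, 12], [0, 13, 0, 13], [0, 14, 0, 14], [0, 15, 0, 15], [1, 1], [1, 2, 1, 2, 1, 2], [1, 3, 1, 3], [1, 4, 1, 4], [1, 5, 1, 5], [1, 6, 1, 6], [1, 7, 1, 7], [1, 8, 1, 8], [1, 9, 1, 9], [1, 10, 1, 10], [1, 11, 1, 11], [1, 12, 1, 12], [1, 13, 1, 13], [1, 14, 1, 14], [1, 15, 1, 15], [2, 2], [2, 3, 2, 3, 2, 3], [2, 4, 2, 4], [2, 5, 2, 5], [2, 6, 2, 6], [2, 7, 2, 7], [2, 8, 2, 8], [2, 9, 2, 9], [2, 10, 2, 10], [2, 11, 2, 11], [2, 12, 2, 12], [2, 13, 2, 13], [2, 14, 2, 14], [2, 15, 2, 15], [3, 3], [3, 4, 3, 4, 3, 4], [3, 5, 3, 5], [3, 6, 3, 6], [3, 7, 3, 7], [3, 8, 3, 8], [3, 9, 3, 9], [3, 10, 3, 10], [3, 11, 3, 11], [3, 12, 3, 12],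 [3, 13, 3, 13], [3, 14, 3, 14], [3, 15, 3, 15], [4, 4], [4, 5, 4, 5, 4, 5], [4, 6, 4, 6], [4, 7, 4, 7], [4, 8, 4, 8], [4, 9, 4, 9], [4, 10, 4, 10], [4, 11, 4, 11], [4, 12, 4, 12], [4, 13, 4, 13], [4, 14, 4, 14], [4, 15, 4, 15], [5, 5], [5, 6, 5, 6], [5, 7, 5, 7], [5, 8, 5, 8], [5, 9, 5, 9], [5, 10, 5, 10], [5, 11, 5, 11], [5, 12, 5, 12], [5, 13, 5, 13], [5, 14, 5, 14], [5, 15, 5, 15], [6, 6], [6, 7, 6, 7, 6, 7], [6, 8, 6, 8], [6, 9, 6, 9], [6, 10, 6, 10], [6, 11, 6, 11], [6, 12, 6, 12], [6, 13, 6, 13], [6, 14, 6, 14], [6, 15, 6, 15], [7, 7], [7, 8, 7, 8, 7, 8], [7, 9, 7, 9], [7, 10, 7, 10], [7, 11, 7, 11], [7, 12, 7, 12], [7, 13, 7, 13], [7, 14, 7, 14], [7, 15, 7, 15], [8, 8], [8, 9, 8, 9, 8, 9], [8, 10, 8, 10], [8, 11, 8, 11], [8, 12, 8, 12], [8, 13, 8, 13], [8, 14, 8, 14], [8, 15, 8, 15], [9, 9], [9, 10, 9, 10, 9, 10], [9, 11, 9, 11], [9, 12,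 9, 12], [9, 13, 9, 13], [9, 14, 9, 14], [9, 15, 9, 15], [10, 10], [10, 11, 10, 11], [10, 12, 10, 12], [10, 13, 10, 13], [10, 14, 10, 14], [10, 15, 10, 15], [11, 11], [11, 12, 11, 12, 11, 12], [11, 13, 11, 13], [11, 14, 11, 14], [11, 15, 11, 15], [12, 12], [12, 13, 12, 13, 12, 13], [12, 14, 12, 14], [12, 15, 12, 15], [13, 13], [13, 14, 13, 14, 13, 14], [13, 15, 13, 15], [14, 14], [14, 15, 14, 15, 14, 15], [15, 15], [0, 1, 2, 0, 6, 7, 0, 11, 12, 0, 1, 2, 0, 6, 7, 0, 11, 12, 0, 1, 2, 0, 6, 7, 0, 11, 12, 0, 1, 2, 0, 6, 7, 0, 11, 12, 0, 1, 2, 0, 6, 7, 0, 11, 12, 0, 1, 2, 0, 6, 7, 0, 11, 12, 0, 1, 2, 0, 6, 7, 0, 11, 12, 0, 1, 2, 0, 6, 7, 0, 11, 12, 0, 1, 2, 0, 6, 7, 0, 11, 12, 0, 1, 2, 0, 6, 7, 0, 11, 12]]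

theorem hgs (x : Gen) : x ∈ gs := by cases x <;> decide

/-- the letters -/
noncomputable def gen : ℕ → CoxPresented Gen edges sp := genL gs

theorem hI : Inv gen 0 := inv_genL (by decide)

theorem pres_eq : presW gs.idxOf 0 gs edges sp = rels := by decide +kernel

theorem hR : Rels gen rels := pres_eq ▸ rels_pres hI (genL_idx hgs) gs

def o : List (List ℕ) := [[6, 4, 6, 4], [6, 5, 6, 5], [7, 4, 7, 4], [7, 5, 7, 5], [11, 4, 11, 4], [11, 5, 11, 5], [11, 8, 11, 8], [12, 4, 12, 4], [12, 5, 12, 5], [12, 8, 12, 8], [6, 1, 6, 1], [6, 2, 6, 2], [7, 1, 7, 1], [7, 2, 7, 2], [8, 1, 8, 1], [8, 2, 8, 2], [11, 1, 11, 1], [11, 2, 11, 2], [11, 9, 11, 9], [11, 10, 11, 10], [12, 1, 12, 1], [12, 2, 12, 2], [12, 9, 12, 9], [12, 10, 12, 10], [0, 6, 7, 0, 11, 12, 0, 1, 2, 0, 6, 7, 0, 11, 12, 0, 1, 2, 0, 6, 7, 0, 11, 12, 0, 1, 2, 0, 6, 7, 0, 11, 12, 0, 1, 2, 0, 6,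 7, 0, 11, 12, 0, 1, 2, 0, 6, 7, 0, 11, 12, 0, 1, 2, 0, 6, 7, 0, 11, 12, 0, 1, 2, 0, 6, 7, 0, 11, 12, 0, 1, 2, 0, 6, 7, 0, 11, 12, 0, 1, 2, 0, 6, 7, 0, 11, 12, 0, 1, 2], [11, 6, 11, 6], [11, 7, 11, 7], [11, 3, 11, 3], [12, 6, 12, 6], [12, 7, 12, 7], [12, 3, 12, 3], [13, 1, 13, 1], [13, 2, 13, 2], [13, 6, 13, 6], [13, 7, 13, 7], [13, 3, 13, 3], [6, 3, 6, 3], [7, 3, 7, 3], [14, 3, 14, 3], [15, 3, 15, 3], [0, 11, 12, 0, 1, 2, 0, 6, 7, 0, 11, 12, 0, 1, 2, 0, 6, 7, 0, 11, 12, 0, 1, 2, 0, 6, 7, 0, 11, 12, 0, 1, 2, 0, 6, 7, 0, 11, 12, 0, 1, 2, 0, 6, 7, 0, 11, 12, 0, 1, 2, 0, 6, 7, 0, 11, 12, 0, 1, 2, 0, 6, 7, 0, 11, 12, 0, 1, 2, 0, 6, 7, 0, 11, 12, 0, 1, 2, 0, 6, 7, 0, 11, 12, 0, 1, 2, 0, 6, 7]]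

theorem k : kbOk 0 o [(nat_lit 256, nat_lit 0x10000403c, nat_lit 1),
  (nat_lit 256, nat_lit 0x100004048, nat_lit 1),
  (nat_lit 256, nat_lit 0x10000403f, nat_lit 1),
  (nat_lit 256, nat_lit 0x10000404b, nat_lit 1),
  (nat_lit 256, nat_lit 0x100004045, nat_lit 1),
  (nat_lit 256, nat_lit 0x100004051, nat_lit 1),
  (nat_lit 256, nat_lit 0x10000406d, nat_lit 1),
  (nat_lit 256, nat_lit 0x100004049, nat_lit 1),
  (nat_lit 256, nat_lit 0x100004055, nat_lit 1),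
  (nat_lit 256, nat_lit 0x100004071, nat_lit 1),
  (nat_lit 256, nat_lit 0x10000401f, nat_lit 1),
  (nat_lit 256, nat_lit 0x10000402e, nat_lit 1),
  (nat_lit 256, nat_lit 0x100004022, nat_lit 1),
  (nat_lit 256, nat_lit 0x100004031, nat_lit 1),
  (nat_lit 256, nat_lit 0x100004025, nat_lit 1),
  (nat_lit 256, nat_lit 0x100004034, nat_lit 1),
  (nat_lit 256, nat_lit 0x10000402a, nat_lit 1),
  (nat_lit 256, nat_lit 0x100004039, nat_lit 1),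
  (nat_lit 256, nat_lit 0x100004080, nat_lit 1),
  (nat_lit 256, nat_lit 0x100004087, nat_lit 1),
  (nat_lit 256, nat_lit 0x10000402f, nat_lit 1),
  (nat_lit 256, nat_lit 0x10000403e, nat_lit 1),
  (nat_lit 256, nat_lit 0x100004085, nat_lit 1),
  (nat_lit 256, nat_lit 0x10000408c, nat_lit 1),
  (nat_lit 256, nat_lit 0x10000c0a0, nat_lit 1),
  (nat_lit 256, nat_lit 0x10000406f, nat_lit 1),
  (nat_lit 256, nat_lit 0x100004079, nat_lit 1),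
  (nat_lit 256, nat_lit 0x100004050, nat_lit 1),
  (nat_lit 256, nat_lit 0x100004073, nat_lit 1),
  (nat_lit 256, nat_lit 0x10000407d, nat_lit 1),
  (nat_lit 256, nat_lit 0x100004054, nat_lit 1),
  (nat_lit 256, nat_lit 0x10000403b, nat_lit 1),
  (nat_lit 256, nat_lit 0x10000404a, nat_lit 1),
  (nat_lit 256, nat_lit 0x100004079, nat_lit 1),
  (nat_lit 256, nat_lit 0x100004083, nat_lit 1),
  (nat_lit 256, nat_lit 0x10000405a, nat_lit 1),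
  (nat_lit 256, nat_lit 0x100004054, nat_lit 1),
  (nat_lit 256, nat_lit 0x100004056, nat_lit 1),
  (nat_lit 256, nat_lit 0x10000405e, nat_lit 1),
  (nat_lit 256, nat_lit 0x100004060, nat_lit 1),
  (nat_lit 256, nat_lit 0x1000180b0, nat_lit 1)] rels = true := by decide +kernel

theorem inst {ws : List (List ℕ)} (h : ws.length = 11)
    (e : allL (fun r => knownOk 0 (o ++ rels) (subW ws r)) YB.rels = true) : Rels gen (YB.o6.map (subW ws)) := by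
  have h1 : Rels (genW gen ws) YB.rels := ((hR.kb hI _ k).append hR).sub hI e
  have h2 := YB.main (inv_of_rels (m := 11) (fun _ a => genW_of_le (h ▸ a)) (by decide) h1 (by decide +kernel)) h1
  intro r hr
  obtain ⟨u, hu, rfl⟩ := List.mem_map.1 hr
  exact (evalW_subW ws u).trans (h2 u hu)

theorem main : ∀ r ∈ extra, (PresentedGroup.mk (coxRelators edges ∪ {r' | r' ∈ sp}) r) = 1 := by
  have h := (inst (ws := [[0], [1], [2], [3], [6], [7], [11], [12], [4], [5], [8]]) rfl (by decide +kernel)).append ((inst (ws := [[0], [6], [7], [8], [11], [12], [1], [2], [9], [10], [13]]) rfl (by decide +kernel)).append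
    ((inst (ws := [[0], [11], [12], [13], [1], [2], [6], [7], [14], [15], [3]]) rfl (by decide +kernel)).append hR))
  have q : Rels gen (extra.map (frW gs.idxOf 0)) := h.kb hI [] (by decide +kernel)
  intro r hr
  exact (evalW_frW_mk hI (genL_idx hgs) r).symm.trans (q _ (List.mem_map_of_mem hr))

end H13.YD
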