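import Mathlib
import Cfsg.Agent.S5599
import Cfsg.Agent.H14.OutM
import Cfsg.Agent.H14.MSimple

/-! The stabiliser of a duad in `M₂₄` is the automorphism group of `M₂₂`. -/

set_option autoImplicit false
open Cfsg Subgroup
open scoped Pointwise

namespace H13.YU

theorem au : Nonempty (↥(Cfsg.M24 ⊓ MulAction.stabilizer (Equiv.Perm Cfsg.GolayPt)
    ({none, some 0} : Set Cfsg.GolayPt)) ≃* MulAut ↥Cfsg.Spor.M22) := by
  have := H14.simple_M22
  have ci : Function.Injective (MulAut.conj : Spor.M22 →* MulAut Spor.M22) := by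
    refine (MonoidHom.ker_eq_bot_iff _).1 ((MonoidHom.normal_ker _).eq_bot_or_eq_top.resolve_right fun t => ?_)
    obtain ⟨x, ox⟩ := exists_prime_orderOf_dvd_card' (G := Spor.M22) 3 (by rw [H14.card_M22]; norm_num)
    have nx : (zpowers x).Normal := ⟨fun a i g => by
      rw [show g * a * g⁻¹ = a from DFunLike.congr_fun (show MulAut.conj g = 1 from t.ge (mem_top g)) a]; exact i⟩
    have cx := (Nat.card_zpowers x).trans ox
    rcases nx.eq_bot_or_eq_top with r | r <;> rw [r] at cx
    · simp at cx
    · rw [card_top, H14.card_M22] at cx; omega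
  have cI : Nat.card (Inn Spor.M22) = 443520 := (Nat.card_congr (MonoidHom.ofInjective ci).toEquiv).symm.trans H14.card_M22
  have cA : Nat.card (MulAut Spor.M22) = 887040 := by
    rw [← (Inn _).card_mul_index, cI, show (Inn Spor.M22).index = 2 from H14.out_o22]
  have e : MulAction.stabilizer (Equiv.Perm GolayPt) ({none, some 0} : Set GolayPt) =
      MulAction.stabilizer (Equiv.Perm GolayPt) ({none, some 0} : Finset GolayPt) := by
    rw [← MulAction.stabilizer_coe_finset]; simp
  set D := Cfsg.M24 ⊓ MulAction.stabilizer (Equiv.Perm Cfsg.GolayPt) ({none, some 0} : Set Cfsg.GolayPt) with hD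
  have cs : ∀ g ∈ D, g ∈ Spor.M22 ∨ (g none = some 0 ∧ g (some 0) = none) := fun g hg => by
    have h : g • ({none, some 0} : Set GolayPt) = {none, some 0} := hg.2
    have a : g none ∈ ({none, some 0} : Set GolayPt) := h ▸ ⟨none, by simp, rfl⟩
    have b : g (some 0) ∈ ({none, some 0} : Set GolayPt) := h ▸ ⟨some 0, by simp, rfl⟩
    have n : g none ≠ g (some 0) := fun c => by simpa using g.injective c
    rcases a with a | a <;> rcases b with b | b
    · exact absurd (a.trans b.symm) n
    · exact Or.inl ⟨⟨hg.1, a⟩, b⟩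
    · exact Or.inr ⟨a, b⟩
    · exact absurd (a.trans b.symm) n
  have le : D ≤ normalizer (Spor.M22 : Set (Equiv.Perm GolayPt)) := fun g hg => (cs g hg).elim (fun h => le_normalizer h)
    fun h => mem_normalizer_fintype (Cfsg.Agent.S5599.result g hg.1 h.1 h.2).2.1
  have MD : Spor.M22 ≤ D := fun g hg => ⟨hg.1.1, by
    have a : g none = none := hg.1.2
    have b : g (some 0) = some 0 := hg.2
    show g • ({none, some 0} : Set GolayPt) = _
    rw [Set.smul_set_insert, Set.smul_set_singleton, Equiv.Perm.smul_def, Equiv.Perm.smul_def, a, b]⟩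
  have cD : Nat.card D = 887040 := by
    have := (Spor.M22.subgroupOf D).card_mul_index
    rw [Nat.card_congr (subgroupOfEquivOfLe MD).toEquiv, H14.card_M22, ← relIndex, hD, e,
      (Cfsg.Agent.S5599.result projInv H14.gamma_mem (by decide) (by decide)).1] at this
    rw [hD, e, ← this]
  let φ : D →* MulAut Spor.M22 := Spor.M22.normalizerMonoidHom.comp (inclusion le)
  have fi : Function.Injective φ := (injective_iff_map_eq_one φ).2 fun g h => by
    have k : ∀ x ∈ Spor.M22, g.1 * x * g.1⁻¹ = x := fun x hx => by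
      have := congrArg Subtype.val (DFunLike.congr_fun h (⟨x, hx⟩ : Spor.M22))
      exact this
    rcases cs g g.2 with a | a
    · have := congrArg Subtype.val ((injective_iff_map_eq_one _).1 ci (⟨g, a⟩ : Spor.M22)
        (MulEquiv.ext fun x => Subtype.ext (k x x.2)))
      exact Subtype.ext this
    · exact absurd ⟨1, one_mem _, fun x hx => by rw [k x hx]; simp⟩ (Cfsg.Agent.S5599.result g g.2.1 a.1 a.2).2.2
  exact ⟨MulEquiv.ofBijective φ (fi.bijective_of_nat_card_le (by rw [cA, cD]))⟩

end H13.YU
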