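import Cfsg.Agent.H13.Z4D
import Cfsg.Agent.H13.O24
import Cfsg.Agent.H29.Invol2
import Cfsg.Agent.S0283

/-! The centraliser of a product of four commuting transpositions in Fi24: `H13.Z4.std`, `quad`, `bound`, `main`. -/

set_option maxRecDepth 100000

namespace H13.Z4

open Subgroup Cfsg H29 H14.PK

variable {G : Type*} [Group G] [Finite G] {D : Set G} {gen : ℕ → G}

omit [Finite G] in
theorem gmem (M : F24.Is D gen) : ∀ l < 16, gen l ∈ D := fun l hl => by
  have := M.eq (allLt_iff.1 (by decide +kernel : allLt (fun l => eqB F24.evf F24.bs [(cjW [11] (nthW [[10, 11, 0, 10], [13, 11, 1, 13], [13, 11, 2, 13],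
    [13, 11, 3, 13], [13, 11, 4, 13], [13, 11, 5, 13], [13, 11, 6, 13], [13, 11, 7, 13], [13, 11, 8, 13], [13, 11, 9, 13], [11, 10], [],
    [13, 12, 11, 13], [11, 13], [11, 14], [11, 15]] l), [l])]) 16 = true) l hl) List.mem_cons_self
  exact mul_one (gen l) ▸ (this ▸ M.mem _ : evalW gen [l] ∈ D)

omit [Finite G] in
theorem std (M : F24.Is D gen) : gen 11 ∈ D ∧ gen 1 ∈ dperp D (gen 11) ∧ gen 3 ∈ dperp (dperp D (gen 11)) (gen 1) ∧
    gen 5 ∈ dperp (dperp (dperp D (gen 11)) (gen 1)) (gen 3) := by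
  have k : ∀ p ∈ [(1, 11, 2), (3, 11, 3), (3, 1, 2), (5, 11, 6), (5, 1, 2), (5, 3, 3)], gen p.1 ≠ gen p.2.1 ∧ Commute (gen p.2.1) (gen p.1) := fun p hp =>
    ⟨by simpa [genW] using M.ne (ws := [[p.1], [p.2.1]]) (l := 0) (l' := 1) (i := p.2.2) (by revert p; decide +kernel), by
      simpa [commute_iff_eq] using M.eq (rs := [([p.2.1, p.1], [p.1, p.2.1])]) (by revert p; decide +kernel) List.mem_cons_self⟩
  simp only [List.forall_mem_cons] at k
  exact ⟨gmem M _ (by decide), ⟨gmem M _ (by decide), k.1⟩, ⟨⟨gmem M _ (by decide), k.2.1⟩, k.2.2.1⟩,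
    ⟨⟨gmem M _ (by decide), k.2.2.2.1⟩, k.2.2.2.2.1⟩, k.2.2.2.2.2.1⟩

omit [Finite G] in
theorem cl_le {X : Set G} {H : Subgroup G} {x : G} (h : closure X ≤ H) : closure (dperp X x) ≤ H ⊓ centralizer {x} :=
  le_inf ((Subgroup.closure_mono fun _ q => q.1).trans h) ((closure_le _).2 fun _ q => mem_centralizer_singleton_iff.2 q.2.2.symm)

theorem quad (M : F24.Is D gen) (h : T24 D) {a b c d : G} (ha : a ∈ D) (hb : b ∈ dperp D a) (hc : c ∈ dperp (dperp D a) b)
    (hd : d ∈ dperp (dperp (dperp D a) b) c) : ∃ gen', F24.Is D gen' ∧ gen' 11 = a ∧ gen' 1 = b ∧ gen' 3 = c ∧ gen' 5 = d := by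
  obtain ⟨s1, s2, s3, -⟩ := std M
  obtain ⟨g, -, rfl, rfl, rfl⟩ := h.1.triple (fun d hd => (h.2 d hd).1) s1 s2 s3 ha hb hc
  obtain ⟨k, hk, rfl⟩ := ((h.2 _ ha).2 _ hb).1.com _ hc _ (std (M.conj g)).2.2.2 d hd
  have := cl_le (cl_le (cl_le le_top)) hk
  exact ⟨_, (M.conj g).conj k, conj_eq_of_commute (mem_centralizer_singleton_iff.1 this.1.1.2),
    conj_eq_of_commute (mem_centralizer_singleton_iff.1 this.1.2), conj_eq_of_commute (mem_centralizer_singleton_iff.1 this.2), rfl⟩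

theorem step_le {X : Set G} {H : Subgroup G} {x : G} (h : closure X ≤ H) (c : H29.Cls X) (hx : x ∈ X) :
    X.ncard * Nat.card ↥(H ⊓ centralizer {x}) ≤ Nat.card H :=
  card_conj H x ▸ Nat.mul_le_mul_right _ (Set.ncard_le_ncard fun y hy => let ⟨g, a, b⟩ := c x hx y hy; ⟨g, h a, b⟩)

theorem step_ge {Y : Set G} {H : Subgroup G} {x : G} (h : ∀ g ∈ H, g * x * g⁻¹ ∈ Y) : Nat.card H ≤ Y.ncard * Nat.card ↥(H ⊓ centralizer {x}) :=
  card_conj H x ▸ Nat.mul_le_mul_right _ (Set.ncard_le_ncard (by rintro _ ⟨g, a, rfl⟩; exact h g a))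

theorem bound (M : F24.Is D gen) (h : T24 D) (h1 : closure D = ⊤) : Nat.card (centralizer {evalW gen [11, 1, 3, 5]}) ≤ 321052999680 := by
  obtain ⟨s1, s2, s3, s4⟩ := std M
  have t := (h.2 _ s1).2 _ s2
  have a1 := step_le h1.le h.1.cls s1
  have a2 := step_le (cl_le h1.le) (h.2 _ s1).1.cls s2
  have a3 := step_le (cl_le (cl_le h1.le)) t.1.cls s3
  have a4 := step_le (cl_le (cl_le (cl_le h1.le))) (t.1.com _ s3) s4
  rw [h.card, card_top, M.card] at a1
  rw [(h.2 _ s1).card] at a2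
  rw [t.card] at a3
  rw [t.par.k_eq _ s3] at a4
  have c0 := (M.cnt cnt (by decide)).1
  simp only [evalW_cons, evalW_nil, mul_one] at c0 ⊢
  generalize gen 11 = a, gen 1 = b, gen 3 = c, gen 5 = d at *
  have T := h.1.tt
  have cj : ∀ {g x : G}, g ∈ centralizer {x} → Commute g x := mem_centralizer_singleton_iff.1
  have b1 := step_ge (H := centralizer {a * (b * (c * d))}) (Y := Fx D (a * (b * (c * d)))) (x := a) fun g hg => ⟨T.conj_mem (h1.ge trivial) s1, by
    rw [← conj_eq_of_commute (cj hg), commute_conj_iff]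
    exact (Commute.refl a).mul_left (s2.2.2.symm.mul_left (s3.1.2.2.symm.mul_left s4.1.1.2.2.symm))⟩
  obtain ⟨n1, m1, c1⟩ := list3 s2.1 (a := b) (b := c) (c := d) ⟨s3.1.1, s3.2⟩ ⟨⟨s4.1.1.1, s4.1.2⟩, s4.2⟩
  have sb : ∀ g ∈ centralizer {a * (b * (c * d))} ⊓ centralizer {a}, ∀ x ∈ [b, c, d], g * x * g⁻¹ ∈ [b, c, d] := fun g hg x hx => by
    refine RL.sub (l := [b, c, d]) (l' := [b, c, d].map (MulAut.conj g)) (h.rl.mono (by simp)) T.tts (by simp) n1 m1 c1 (n1.map (MulAut.conj g).injective)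
      (by simp) (List.forall_mem_map.2 fun y hy => T.conj_mem (h1.ge trivial) (m1 y hy))
      (List.forall_mem_map.2 fun y hy => List.forall_mem_map.2 fun z hz => (c1 y hy z hz).map _) ?_ _ (List.mem_map_of_mem hx)
    have := (cj hg.2).inv_right.mul_right (cj hg.1)
    rw [inv_mul_cancel_left] at this
    rw [← map_list_prod]
    simpa using (conj_eq_of_commute this).symm
  have b2 := step_ge (Y := {b, c, d}) (x := b) fun g hg => by simpa using sb g hg b (by simp)
  have b3 := step_ge (H := centralizer {a * (b * (c * d))} ⊓ centralizer {a} ⊓ centralizer {b}) (Y := {c, d}) (x := c) fun g hg => by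
    have := sb g hg.1 c (by simp)
    simp only [List.mem_cons, List.not_mem_nil, or_false] at this
    refine this.resolve_left fun e => s3.2.1 ((MulAut.conj g).injective (e.trans (conj_eq_of_commute (cj hg.2)).symm))
  have b4 := card_le_of_le (show centralizer {a * (b * (c * d))} ⊓ centralizer {a} ⊓ centralizer {b} ⊓ centralizer {c} ≤
      ⊤ ⊓ centralizer {a} ⊓ centralizer {b} ⊓ centralizer {c} ⊓ centralizer {d} from fun g hg => ⟨⟨⟨⟨trivial, hg.1.1.2⟩, hg.1.2⟩, hg.2⟩,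
    mem_centralizer_singleton_iff.2 (by simpa [commute_iff_eq] using (cj hg.2).inv_right.mul_right ((cj hg.1.2).inv_right.mul_right ((cj hg.1.1.2).inv_right.mul_right (cj hg.1.1.1))))⟩)
  have b0 : ({c, d} : Set G).ncard ≤ 2 := (Set.ncard_insert_le c {d}).trans (by simp)
  have b5 := Nat.mul_le_mul_right (Nat.card ↥(centralizer {a * (b * (c * d))} ⊓ centralizer {a} ⊓ centralizer {b})) ((Set.ncard_insert_le b {c, d}).trans (Nat.succ_le_succ b0))
  have b6 := Nat.mul_le_mul_right (Nat.card ↥(centralizer {a * (b * (c * d))} ⊓ centralizer {a} ⊓ centralizer {b} ⊓ centralizer {c})) b0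
  rw [c0] at b1
  omega

omit [Finite G] in
theorem tl_congr {g g' : ℕ → G} {n k : ℕ} (h : ∀ j < n, g j = g' j) : tl g n k = tl g' n k :=
  congrArg Subgroup.closure (Set.image_congr fun j hj => h j hj.2)

theorem par (M : F24.Is D gen) (hD : IsThreeTranspositionGroup D) : ∀ u : List ℕ, (∀ l ∈ u, l < 16) → (evalW gen u ∈ commutator G ↔ u.length % 2 = 0)
  | [], _ => by simp
  | x :: u, h => by
    rw [evalW_cons, mul_mem_iff_of_index_two (F24.index_commutator M hD), par M hD u fun l hl => h l (.tail _ hl), List.length_cons]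
    have := F24.not_mem_commutator M _ (gmem M x (h x (.head _)))
    simp only [this, false_iff]
    omega

theorem main (M : F24.Is D gen) (hD : IsThreeTranspositionGroup D) (h : T24 D) {C : Subgroup G}
    (hC : C = commutator G ⊓ centralizer {evalW gen [11, 1, 3, 5]}) : ∃ (Q : Subgroup C) (_ : Q.Normal), generalizedFittingSubgroup C = Q ∧
      IsExtraspecial 2 Q ∧ Nat.card Q = 2 ^ 13 ∧ ∃ (N M : Subgroup C) (_ : N.Normal) (_ : M.Normal), Q ≤ N ∧ N ≤ M ∧ Nat.card N = 3 * Nat.card Q ∧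
        (∃ (K : Type) (_ : Field K) (_ : Fintype K), Fintype.card K = 9 ∧ Nonempty (M ⧸ N.subgroupOf M ≃* PSU 4 K 3)) ∧ M.index = 2 := by
  obtain ⟨e, X⟩ := M.mt
  have := Fintype.ofFinite (GaloisField 3 2)
  have hF : Fintype.card (GaloisField 3 2) = 9 := by rw [← Nat.card_eq_fintype_card, GaloisField.card 3 2 (by decide)]; rfl
  obtain ⟨T, Y⟩ := H27.U43.model _ hF
  have := Cfsg.Agent.S0283.result (q := 3) hF 4 (by decide) (by decide)
  obtain ⟨θ, hθ⟩ := X.sm.inc T Y.base inc sep (ws := al) (r := 16) (ts := ts) fun l hl => ⟨by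
    rcases (by decide +kernel : ∀ l < 16, ts l = idv 9 280 ∨ ts l ∈ H27.U43.Ls) l hl with q | q
    exacts [q ▸ TS.In.one, Y.mem _ q], (by decide +kernel : ∀ l < 16, nthW ws l = nthW al l) l hl ▸ ic l hl⟩
  have t1 : ∀ l (hl : l < 14), θ ⟨_, mem_tl l.zero_le (hl.trans (by decide))⟩ = 1 := fun l hl => by
    rw [hθ l (by omega), (by decide +kernel : ∀ l < 14, ts l = idv 9 280) l hl, ← T.tb_one, TS.el_tb]
  have sj : Function.Surjective θ := MonoidHom.range_eq_top.1 (eq_top_iff.2 (Y.cl.ge.trans (TS.cl_le' fun t ht => by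
    obtain ⟨l, hl, rfl⟩ := (by decide +kernel : ∀ t ∈ H27.U43.Ls, ∃ l < 16, t = ts l) t ht
    exact ⟨_, hθ l hl⟩)))
  obtain ⟨z, A⟩ := (ssm X).aes2 ppc (le_trans (by decide +kernel) (pch ▸ (ssm X).card_ge (by decide) plv)) aes
  replace A := A 0 (by decide)
  have n := (ssm X).ndf ppc (k := 0) rfl nd A.2 z
  have nW := fun l q => X.sm.nm' (allLt_iff.1 nm l q)
  have eq : ∀ l < 13, genW gen qs l = genW gen al l := fun l hl => by
    rw [genW_eq, genW_eq, (by decide +kernel : ∀ l < 13, nthW qs l = nthW al l) l hl]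
  have eh : ∀ l < 4, evalW gen (nthW hs l) = genW gen al (13 + l) := fun l hl => by
    rw [genW_eq, (by decide +kernel : ∀ l < 4, nthW hs l = nthW al (13 + l)) l hl]
  have mC : ∀ l < 18, genW gen al l ∈ C := fun l hl => by
    obtain ⟨a, b, c⟩ := (by decide +kernel : ∀ l < 18, nthW al l ∈ al ∧ (∀ x ∈ nthW al l, x < 16) ∧ (nthW al l).length % 2 = 0) l hl
    rw [hC, genW_eq]
    exact ⟨(par M hD _ b).2 c, mem_centralizer_singleton_iff.2 (mem_cenW.1 (M.le_cen cz (evalW_mem_clW a)) _ (.head _)).symm⟩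
  have E := M.eqs eqs
  have n0 := M.neG ne0
  have n1 := M.neG ne1
  have n2 := M.neG ne2
  have n3 := M.neG ne3
  have n4 := M.neG ne4
  rw [tl_congr eq, eq 12 (by decide)] at A n
  simp only [tl_congr eq] at nW
  replace nW := fun l q => eh l q ▸ nW l q
  generalize genW gen al = a at *
  have k : ∀ u w v, (u, w ++ v) ∈ _ → inB 0 13 w = true → evalW a u * (evalW a v)⁻¹ ∈ tl a 13 0 := fun u w v p q => by
    rw [E _ p, evalW_append, mul_inv_cancel_right]; exact evalW_mem_tl q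
  have k1 := k [14, 13] [1, 2, 4, 6, 7, 10, 12] [13, 14] (by decide) (by decide +kernel)
  have k2 := k [15, 13] [0, 1, 2, 3, 4, 5, 6, 7, 8, 9, 11, 12] [13, 15] (by decide) (by decide +kernel)
  have k3 := k [16, 13] [0, 7, 8, 10, 12] [13, 13, 16] (by decide) (by decide +kernel)
  have k4 := E ([13, 13, 13], []) (by decide)
  have k6 := E ([17, 17, 17, 17, 17], []) (by decide)
  simp only [evalW_cons, evalW_nil, mul_one, mul_inv_rev, ← mul_assoc] at k1 k2 k3 k4 k6 n0 n1 n2 n3 n4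
  have QM : tl a 13 0 ≤ tl a 16 0 := tl_le fun j p q => mem_tl p (by omega)
  have MC : tl a 16 0 ≤ C := tl_le fun j _ q => mC j (by omega)
  have hM : tl a 16 0 ≤ cmQ (tl a 13 0) (a 13) := tl_le fun j p q => by
    rcases Nat.lt_or_ge j 13 with r | r
    · exact ⟨le_normalizer (mem_tl p r), by simpa [mul_assoc] using mul_mem (mem_tl p r) ((mem_normalizer_iff.1 (nW 0 (by decide)) _).1 (inv_mem (mem_tl p r)))⟩
    interval_cases j
    exacts [⟨nW 0 (by decide), by simp⟩, ⟨nW 1 (by decide), k1⟩, ⟨nW 2 (by decide), k2⟩]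
  have tr : ∀ g : C, g.1 ∈ normalizer (tl a 13 0 : Set G) → g ∈ normalizer ((tl a 13 0).subgroupOf C : Set C) := fun g hg =>
    mem_normalizer_fintype fun x hx => (mem_normalizer_iff.1 hg x.1).1 hx
  have cQ := (Nat.card_congr (subgroupOfEquivOfLe (QM.trans MC)).toEquiv).trans A.1
  have b1 := bound M h hD.2.2
  have b2 := card_rel (hC.le.trans inf_le_right)
  have b3 : C.relIndex (centralizer {evalW gen [11, 1, 3, 5]}) ≠ 1 := fun q => F24.not_mem_commutator M _ (gmem M 11 (by decide))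
    (hC.le (relIndex_eq_one.1 q (mem_centralizer_singleton_iff.2 (by
      simpa [mul_assoc] using M.eq (rs := [([11, 11, 1, 3, 5], [11, 1, 3, 5, 11])]) (by decide +kernel) (.head _))))).1
  have b4 : C.relIndex (centralizer {evalW gen [11, 1, 3, 5]}) ≠ 0 := fun q => by
    rw [q, zero_mul] at b2; exact Nat.card_pos.ne' b2
  have b5 := Nat.mul_le_mul_right (Nat.card C) (by omega : 2 ≤ C.relIndex (centralizer {evalW gen [11, 1, 3, 5]}))
  obtain ⟨nQ, f, N, nN, nM, l1, l2, c, i, j⟩ := core23 (Q := (tl a 13 0).subgroupOf C) (M := (tl a 16 0).subgroupOf C) (x := ⟨_, mC 13 (by decide)⟩)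
    (c := ⟨_, mC 16 (by decide)⟩) (k := ⟨_, mC 17 (by decide)⟩) (y := ⟨_, mC 0 (by decide)⟩) (z := ⟨_, mC 12 (by decide)⟩) (a := 13)
    (θ.comp (subgroupOfEquivOfLe MC).toMonoidHom) (sj.comp (MulEquiv.surjective _)) (by rw [Y.card]; decide) (by rw [Y.card]; omega) cQ
    (fun _ q => QM q) (mem_tl (Nat.zero_le _) (by decide)) (fun q hq => by
      obtain ⟨y, hy, r⟩ := (tl_le fun j p s => ⟨_, t1 j (by omega), rfl⟩ : tl a 13 0 ≤ θ.ker.map (Subgroup.subtype _)) hq
      exact (congrArg θ (Subtype.ext r.symm)).trans hy) (t1 13 (by decide)) (Subtype.ext (by simpa [pow_succ] using k4))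
    (fun g hg => ⟨tr g (hM hg).1, (hM hg).2⟩) (tr _ (nW 3 (by decide))) (by
      have r : (a 13)⁻¹ * (a 13)⁻¹ = a 13 := by rw [← mul_inv_rev, inv_eq_iff_mul_eq_one, k4]
      rw [mul_assoc _ _ (a 13)⁻¹, r] at k3
      exact k3) (mem_tl le_rfl (by decide)) (fun q hq => by
      obtain ⟨i, hi⟩ := mem_powers_iff_mem_zpowers.2 (A.2.comm _ hq _ (mem_tl le_rfl (by decide : 0 < 13)))
      change a 12 ^ i = _ at hi
      rw [← pow_mod_orderOf, A.2.ord, commutatorElement_def, eq_mul_inv_iff_mul_eq, eq_mul_inv_iff_mul_eq] at hi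
      rcases Nat.mod_two_eq_zero_or_one i with r | r <;> rw [r] at hi
      exacts [.inl (Subtype.ext (by simpa using hi.symm)), .inr (Subtype.ext (by simpa using hi.symm))])
    ⟨fun r => n0 (congrArg Subtype.val r), fun r => n1 (congrArg Subtype.val r)⟩
    ⟨fun r => n2 (by simpa [sq, mul_assoc] using congrArg Subtype.val r), fun r => n3 (by simpa [sq, mul_assoc] using congrArg Subtype.val r)⟩
    (Subtype.ext (by simpa [pow_succ] using k6)) fun r => n4 (congrArg Subtype.val r)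
  exact ⟨_, nQ, f, es_equiv' (es_of_aes (a := 11) A.2 n A.1) (subgroupOfEquivOfLe (QM.trans MC)).symm, cQ, N, _, nN, nM, l1, l2, c,
    ⟨_, _, _, hF, i⟩, j⟩

end H13.Z4
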